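import Cfsg.Agent.H32.Omega

/-! A trace formula for the number of irreducible characters not vanishing on an idempotent `e` of
the complex group algebra, in terms of matrices describing `e ℂG e`. -/

set_option autoImplicit false

namespace Cfsg.Agent.H38

open Cfsg MonoidAlgebra Cfsg.Agent.H32

variable {G : Type*} [Group G] [Fintype G]

/-- The sum of all conjugates. -/
noncomputable def gam : MonoidAlgebra ℂ G →ₗ[ℂ] MonoidAlgebra ℂ G where
  toFun a := ∑ g, single g 1 * a * single g⁻¹ 1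
  map_add' a b := by simp [mul_add, add_mul, Finset.sum_add_distrib]
  map_smul' c a := by simp [Finset.smul_sum]

theorem gam_apply (a : MonoidAlgebra ℂ G) : gam a = ∑ g, single g 1 * a * single g⁻¹ 1 := rfl

theorem gam_mem (a : MonoidAlgebra ℂ G) : gam a ∈ Zc ℂ G := by
  refine mem_Zc_iff.2 fun g h => ?_
  simp only [gam_apply, coeff_sum_apply, coeff_single_mul_mul_single_inv]
  rw [← Equiv.sum_comp (Equiv.mulLeft h)]
  simp [mul_assoc]

theorem gam_mul {z : MonoidAlgebra ℂ G} (hz : z ∈ Zc ℂ G) (a : MonoidAlgebra ℂ G) :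
    gam (a * z) = gam a * z := by
  simp only [gam_apply, Finset.sum_mul, mul_assoc, Zc_comm hz]

theorem ev_gam {χ : G → ℂ} (hχ : IsClassFunction G χ) (a : MonoidAlgebra ℂ G) :
    ev χ (gam a) = Fintype.card G * ev χ a := by
  rw [gam_apply, map_sum, Finset.sum_congr rfl fun g _ => by
    rw [ev_mul_comm hχ, ← mul_assoc, single_mul_single, inv_mul_cancel, one_mul, ← one_def, one_mul]]
  simp

theorem eq_zero_of_idem {a : MonoidAlgebra ℂ G} (ha : IsIdempotentElem a)
    (h : ∀ χ : IrrCharacter G, ev χ a = 0) : a = 0 := by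
  have h1 := H5.classFunction_eq_sum (H5.isClassFunction_of_isCharacter
    (H5.isCharacter_character (Representation.ofMulAction ℂ G G)))
  have h2 : ev (Representation.ofMulAction ℂ G G).character a = 0 := by
    rw [h1, ev_sum_fun]; simp [ev_smul_fun, h]
  rw [ev_character] at h2
  have h3 := LinearMap.IsIdempotentElem.eq_zero_of_trace_eq_zero
    (ha.map (Representation.ofMulAction ℂ G G).asAlgebraHom) h2
  have h4 : ∀ b : MonoidAlgebra ℂ G,
      (Representation.ofMulAction ℂ G G).asAlgebraHom b (single 1 1) = b := fun b => by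
    induction b using MonoidAlgebra.induction_linear with
    | zero => simp
    | add a b ha hb => simp [ha, hb]
    | single g c => simp
  rw [← h4 a, h3, LinearMap.zero_apply]

theorem ev_mul_blockIdem (χ ψ : IrrCharacter G) [Decidable (ψ = χ)] (a : MonoidAlgebra ℂ G) :
    ev ψ (a * blockIdem {χ}) = if ψ = χ then ev ψ a else 0 := by
  rw [← Zc_comm (blockIdem_mem_Zc _)]
  split_ifs with h
  · exact ev_blockIdem_mul_of_mem (Set.mem_singleton_iff.2 h) a
  · exact ev_blockIdem_mul_of_not_mem (by simpa using h) a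

theorem mul_blockIdem_of_mem_Zc {z : MonoidAlgebra ℂ G} (hz : z ∈ Zc ℂ G) (χ : IrrCharacter G) :
    z * blockIdem {χ} = omega χ z • blockIdem {χ} := by
  classical
  refine Zc_ext (mul_mem hz (blockIdem_mem_Zc _)) (Subalgebra.smul_mem _ (blockIdem_mem_Zc _) _) fun ψ => ?_
  rw [omega_mul ψ.2 hz, map_smul, omega_blockIdem]
  split_ifs with h
  · rw [Set.mem_singleton_iff.1 h]; rfl
  · simp

open Matrix in
theorem trace_formula {W : Type*} [Fintype W] [DecidableEq W] {e : MonoidAlgebra ℂ G}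
    (he : IsIdempotentElem e) (Φ : (W → ℂ) →ₗ[ℂ] MonoidAlgebra ℂ G) (hinj : Function.Injective Φ)
    (hr : ∀ x, e * Φ x = Φ x) (hr' : ∀ a, ∃ x, Φ x = e * a * e) {Γ L : Matrix W W ℂ} {κ : ℂ} (hκ : κ ≠ 0)
    (hΓ : ∀ x, Φ (Γ *ᵥ x) = κ • (e * gam (Φ x))) (hL : ∀ x, Φ (L *ᵥ x) = κ • (e * gam e) * Φ x) :
    L.det ≠ 0 ∧ trace (adjugate L * Γ) = Nat.card {χ : IrrCharacter G // ev χ e ≠ 0} * L.det ∧
      Nat.card {χ : IrrCharacter G // ev χ e ≠ 0} ≤ Fintype.card W := by
  classical
  have hz : ∀ χ : IrrCharacter G, e * blockIdem {χ} * e = e * blockIdem {χ} := fun χ => by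
    rw [mul_assoc, Zc_comm (blockIdem_mem_Zc _), ← mul_assoc, he.eq]
  choose y hy using fun χ : IrrCharacter G => hr' (blockIdem {χ})
  simp only [hz] at hy
  have h0 : ∀ χ : IrrCharacter G, ev χ e = 0 → e * blockIdem {χ} = 0 := fun χ h =>
    eq_zero_of_idem (by
      unfold IsIdempotentElem
      rw [← mul_assoc, hz, mul_assoc, blockIdem_mul_self]) fun ψ => by
      rw [ev_mul_blockIdem]; split_ifs with h' <;> simp [h', h]
  have hsum : ∀ z ∈ Zc ℂ G, e * z =
      ∑ χ : {χ : IrrCharacter G // ev χ e ≠ 0}, omega χ.1 z • (e * blockIdem {χ.1}) := fun z hz => by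
    conv_lhs => rw [eq_sum_omega_smul hz, Finset.mul_sum]
    simp only [mul_smul_comm]
    rw [← Finset.sum_subtype (Finset.univ.filter fun χ : IrrCharacter G => ev χ e ≠ 0) (by simp)
      fun χ => omega χ z • (e * blockIdem {χ}), Finset.sum_filter]
    exact Finset.sum_congr rfl fun χ _ => by split_ifs with h <;> simp [h0 χ, not_not.1, h]
  have hl : ∀ χ : {χ : IrrCharacter G // ev χ e ≠ 0}, κ * omega χ.1 (gam e) ≠ 0 := fun χ => by
    rw [omega_apply, ev_gam (H5.isClassFunction_of_isIrr χ.1.2)]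
    exact mul_ne_zero hκ (div_ne_zero (mul_ne_zero (by simp) χ.2) (H5.degree_ne_zero χ.1.2))
  have hc : ∀ χ : IrrCharacter G, κ • (e * gam e) * (e * blockIdem {χ}) =
      (κ * omega χ (gam e)) • (e * blockIdem {χ}) := fun χ => by
    rw [smul_mul_assoc, mul_assoc, ← mul_assoc (gam e), Zc_comm (gam_mem e), ← mul_assoc, ← mul_assoc,
      he.eq, mul_assoc, mul_blockIdem_of_mem_Zc (gam_mem e), mul_smul_comm, smul_smul]
  have hLy : ∀ χ, L *ᵥ y χ = (κ * omega χ (gam e)) • y χ := fun χ => hinj (by rw [hL, map_smul, hy, hc])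
  have hdet : L.det ≠ 0 := by
    rw [Ne, ← Matrix.exists_mulVec_eq_zero_iff]
    rintro ⟨x, hx0, hx⟩
    refine hx0 (hinj ?_)
    have h1 := hL x
    rw [hx, map_zero] at h1
    rw [map_zero, ← hr x, ← mul_one e, hsum 1 (one_mem _), Finset.sum_mul]
    refine Finset.sum_eq_zero fun χ _ => ?_
    have h2 : (κ * omega χ.1 (gam e)) • (e * blockIdem {χ.1} * Φ x) = 0 := by
      rw [← smul_mul_assoc, ← hc, mul_assoc, mul_assoc, Zc_comm (blockIdem_mem_Zc _), ← mul_assoc e, hr,
        ← mul_assoc, ← h1, zero_mul]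
    rw [smul_mul_assoc, (smul_eq_zero.1 h2).resolve_left (hl χ), smul_zero]
  refine ⟨hdet, ?_, ?_⟩
  · have hΓ' : ∀ x, Γ *ᵥ x = ∑ χ : {χ : IrrCharacter G // ev χ e ≠ 0},
        (κ * omega χ.1 (gam (Φ x))) • y χ.1 := fun x => hinj (by
      rw [hΓ, hsum _ (gam_mem _), map_sum, Finset.smul_sum]
      simp only [map_smul, hy, smul_smul])
    have hadj : ∀ χ : {χ : IrrCharacter G // ev χ e ≠ 0},
        adjugate L *ᵥ y χ.1 = ((κ * omega χ.1 (gam e))⁻¹ * L.det) • y χ.1 := fun χ => by
      have := congrArg (adjugate L *ᵥ ·) (hLy χ.1)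
      simp only [mulVec_mulVec, adjugate_mul, mulVec_smul, smul_mulVec, one_mulVec] at this
      rw [mul_smul, this, smul_smul, inv_mul_cancel₀ (hl χ), one_smul]
    have h1 : trace (adjugate L * Γ) = ∑ v, (adjugate L *ᵥ (Γ *ᵥ Pi.single v 1)) v := by
      simp only [mulVec_single_one]; rfl
    rw [h1]
    simp only [hΓ', mulVec_sum, mulVec_smul, hadj, Finset.sum_apply, Pi.smul_apply, smul_eq_mul]
    rw [Finset.sum_comm, Finset.sum_congr rfl (g := fun _ => L.det) fun χ _ => ?_]
    · simp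
    · have h2 : omega χ.1 (gam (Φ (y χ.1))) = omega χ.1 (gam e) := by
        rw [hy, gam_mul (blockIdem_mem_Zc _), omega_mul χ.1.2 (gam_mem e),
          omega_blockIdem_of_mem (Set.mem_singleton _), mul_one]
      have h3 : omega χ.1 (gam (Φ (y χ.1))) = ∑ v, y χ.1 v * omega χ.1 (gam (Φ (Pi.single v 1))) := by
        conv_lhs => rw [pi_eq_sum_univ' (y χ.1)]
        simp [map_sum]
      calc _ = (κ * omega χ.1 (gam e))⁻¹ * L.det * κ *
            ∑ v, y χ.1 v * omega χ.1 (gam (Φ (Pi.single v 1))) := by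
            rw [Finset.mul_sum]; exact Finset.sum_congr rfl fun v _ => by ring
        _ = _ := by rw [← h3, h2, mul_assoc, mul_right_comm, inv_mul_cancel₀ (hl χ), one_mul]
  · have hli : LinearIndependent ℂ fun χ : {χ : IrrCharacter G // ev χ e ≠ 0} => y χ.1 := by
      refine Fintype.linearIndependent_iff.2 fun c hc ψ => ?_
      have := congrArg (fun x => ev ψ.1 (Φ x)) hc
      simp only [map_sum, map_smul, hy, ev_mul_blockIdem, map_zero, smul_eq_mul, Subtype.val_inj,
        mul_ite, mul_zero, Finset.sum_ite_eq, Finset.mem_univ, if_true] at this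
      exact (mul_eq_zero.1 this).resolve_right ψ.2
    simpa using hli.fintype_card_le_finrank

end Cfsg.Agent.H38
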