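import Cfsg.Agent.H38.Hecke1

/-! The generic Hecke algebra in its regular representation, and its specialisations to groups with
a Bruhat decomposition; the number of constituents of `1_B^G` does not depend on the parameter. -/

set_option autoImplicit false

namespace Cfsg.Agent.H38

open Cfsg Cfsg.Agent.H32 Matrix

/-- A group with generating involutions and a length function. -/
structure HkW (W ι : Type) [Group W] where
  /-- the generators -/
  s : ι → W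
  /-- the length -/
  l : W → ℕ
  sq : ∀ i, s i * s i = 1
  step : ∀ i w, l (s i * w) = l w + 1 ∨ l (s i * w) + 1 = l w
  desc : ∀ w, w ≠ 1 → ∃ i, l (s i * w) + 1 = l w
  l_one : l 1 = 0

namespace HkW

variable {W ι : Type} [Group W] (C : HkW W ι)

theorem exists_red (w : W) : ∃ L : List ι, (L.map C.s).prod = w ∧ L.length = C.l w := by
  induction h : C.l w generalizing w with
  | zero =>
    refine ⟨[], ?_, rfl⟩
    by_contra h1
    obtain ⟨i, hi⟩ := C.desc w (Ne.symm h1)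
    omega
  | succ n ih =>
    obtain ⟨i, hi⟩ := C.desc w (by rintro rfl; simp [C.l_one] at h)
    obtain ⟨L, h1, h2⟩ := ih (C.s i * w) (by omega)
    exact ⟨i :: L, by simp [h1, ← mul_assoc, C.sq], by simp [h2]⟩

/-- A reduced word. -/
noncomputable def red (w : W) : List ι := (C.exists_red w).choose

theorem l_le (L : List ι) : C.l (L.map C.s).prod ≤ L.length := by
  induction L with
  | nil => simp [C.l_one]
  | cons i L ih => have := C.step i (L.map C.s).prod; simp only [List.map_cons, List.prod_cons, List.length_cons]; omega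

theorem l_s (i : ι) : C.l (C.s i) = 1 := by simpa [C.l_one] using C.step i 1

variable [Fintype W] [DecidableEq W] {A : Type*} [CommRing A]

/-- Left multiplication by `T_{s_i}`. -/
def Ls (x : A) (i : ι) : Matrix W W A := of fun u w =>
  if C.l (C.s i * w) = C.l w + 1 then (if u = C.s i * w then 1 else 0)
  else (if u = C.s i * w then x else 0) + if u = w then x - 1 else 0

/-- Left multiplication by `T_w`. -/
noncomputable def Lw (x : A) (w : W) : Matrix W W A := ((C.red w).map (C.Ls x)).prod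

/-- The map `h ↦ ∑ T_w h T_w^∨`, up to a scalar. -/
noncomputable def Gm (x : A) : Matrix W W A := of fun u v =>
  ∑ w, x ^ (∑ w, C.l w - C.l w⁻¹) * (C.Lw x w * C.Lw x v) u w⁻¹

/-- Left multiplication by `∑ T_w T_w^∨`, up to a scalar. -/
noncomputable def Lc (x : A) : Matrix W W A := ∑ v, C.Gm x v 1 • C.Lw x v

variable {A' : Type*} [CommRing A'] (f : A →+* A') (x : A)

theorem map_Ls (i : ι) : f.mapMatrix (C.Ls x i) = C.Ls (f x) i := by
  ext u w
  simp [Ls, apply_ite f]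

theorem map_Lw (w : W) : f.mapMatrix (C.Lw x w) = C.Lw (f x) w := by
  rw [Lw, map_list_prod, List.map_map, Lw]
  congr 2
  funext i; exact C.map_Ls f x i

theorem map_Gm : f.mapMatrix (C.Gm x) = C.Gm (f x) := by
  ext u v
  simp only [Gm, RingHom.mapMatrix_apply, map_apply, of_apply, map_sum, map_mul, map_pow, ← C.map_Lw f,
    mul_apply]

theorem map_Lc : f.mapMatrix (C.Lc x) = C.Lc (f x) := by
  ext u v
  simp only [Lc, ← C.map_Gm f, ← C.map_Lw f, RingHom.mapMatrix_apply, map_apply, Matrix.sum_apply,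
    Matrix.smul_apply, smul_eq_mul]
  simp only [map_sum, map_mul]

/-- The trace formula holds at the parameter `q` with the integer `k`. -/
def Spec (q : ℂ) (k : ℕ) : Prop :=
  (C.Lc q).det ≠ 0 ∧ trace (adjugate (C.Lc q) * C.Gm q) = k * (C.Lc q).det ∧ k ≤ Fintype.card W

open Polynomial in
theorem spec_unique (a : ℕ → ℂ) (ha : Function.Injective a) (h : ∀ m, ∃ k, C.Spec (a m) k)
    {q q' : ℂ} {k k' : ℕ} (h1 : C.Spec q k) (h2 : C.Spec q' k') : k = k' := by
  have e1 : ∀ q : ℂ, (C.Lc (X : ℂ[X])).det.eval q = (C.Lc q).det := fun q => by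
    rw [← coe_evalRingHom, RingHom.map_det, map_Lc]; simp
  have e2 : ∀ q : ℂ, (trace (adjugate (C.Lc (X : ℂ[X])) * C.Gm X)).eval q =
      trace (adjugate (C.Lc q) * C.Gm q) := fun q => by
    rw [← coe_evalRingHom, AddMonoidHom.map_trace, ← RingHom.mapMatrix_apply, map_mul,
      RingHom.map_adjugate, map_Lc, map_Gm]; simp
  choose κ hκ using h
  obtain ⟨k0, hk0⟩ := Finite.exists_infinite_fiber
    fun m => (⟨κ m, Nat.lt_succ_of_le (hκ m).2.2⟩ : Fin (Fintype.card W + 1))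
  have hz : trace (adjugate (C.Lc (X : ℂ[X])) * C.Gm X) - Polynomial.C ((k0 : ℕ) : ℂ) * (C.Lc X).det = 0 := by
    refine eq_zero_of_infinite_isRoot _ (((Set.infinite_coe_iff.1 hk0).image ha.injOn).mono ?_)
    rintro _ ⟨m, hm, rfl⟩
    obtain rfl : _ = k0 := hm
    simp [e1, e2, (hκ m).2.1]
  have key : ∀ {q : ℂ} {k : ℕ}, C.Spec q k → k = k0 := fun {q k} h => by
    have := congrArg (eval q) hz
    simp only [eval_sub, eval_mul, eval_C, e1, e2, h.2.1, eval_zero, sub_eq_zero] at this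
    exact_mod_cast mul_right_cancel₀ h.1 this
  rw [key h1, key h2]

end HkW

/-- A group with a Bruhat decomposition of type `C` with parameter `q`. -/
structure Hk {W ι : Type} [Group W] (C : HkW W ι) (G : Type*) [Group G] (q : ℕ) where
  /-- the Borel subgroup -/
  B : Subgroup G
  /-- the double coset of an element -/
  wt : G → W
  wt_eq : ∀ g g', wt g = wt g' ↔ ∃ b ∈ B, ∃ b' ∈ B, g' = b * g * b'
  wt_one : wt 1 = 1
  wt_inv : ∀ g, wt g⁻¹ = (wt g)⁻¹
  card : ∀ w, Nat.card {g // wt g = w} = Nat.card B * q ^ C.l w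
  mul_pos : ∀ i g g', wt g = C.s i → C.l (C.s i * wt g') = C.l (wt g') + 1 → wt (g * g') = C.s i * wt g'
  mul_self : ∀ i g g', wt g = C.s i → wt g' = C.s i → wt (g * g') = 1 ∨ wt (g * g') = C.s i

namespace Hk

open MonoidAlgebra hiding single

variable {W ι : Type} [Group W] {C : HkW W ι} {G : Type*} [Group G] {q : ℕ} (Y : Hk C G q)

theorem wt_mul_left {b : G} (hb : b ∈ Y.B) (g : G) : Y.wt (b * g) = Y.wt g :=
  ((Y.wt_eq _ _).2 ⟨b, hb, 1, one_mem _, (mul_one _).symm⟩).symm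

theorem wt_mul_right {b : G} (hb : b ∈ Y.B) (g : G) : Y.wt (g * b) = Y.wt g :=
  ((Y.wt_eq _ _).2 ⟨1, one_mem _, b, hb, by rw [one_mul]⟩).symm

theorem wt_eq_one {g : G} : Y.wt g = 1 ↔ g ∈ Y.B := by
  rw [← Y.wt_one, eq_comm, Y.wt_eq]
  exact ⟨by rintro ⟨b, hb, b', hb', rfl⟩; simpa using mul_mem hb hb',
    fun h => ⟨g, h, 1, one_mem _, by simp⟩⟩

variable [Fintype G] [DecidableEq W]

/-- The parametrisation of the Hecke algebra. -/
noncomputable def Φ : (W → ℂ) →ₗ[ℂ] MonoidAlgebra ℂ G where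
  toFun x := ofFun fun g => (Nat.card Y.B : ℂ)⁻¹ * x (Y.wt g)
  map_add' x y := alg_ext fun g => by simp [mul_add]
  map_smul' c x := alg_ext fun g => by simp [mul_left_comm]

omit [DecidableEq W] in
theorem coeff_Φ (x : W → ℂ) (g : G) : (Y.Φ x).coeff g = (Nat.card Y.B : ℂ)⁻¹ * x (Y.wt g) := rfl

/-- The standard basis. -/
noncomputable def T (w : W) : MonoidAlgebra ℂ G := Y.Φ (Pi.single w 1)

theorem coeff_T (w : W) (g : G) :
    (Y.T w).coeff g = if Y.wt g = w then (Nat.card Y.B : ℂ)⁻¹ else 0 := by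
  rw [T, coeff_Φ, Pi.single_apply]; split_ifs <;> simp

omit [DecidableEq W] in
theorem cardB_ne : (Nat.card Y.B : ℂ) ≠ 0 := by exact_mod_cast Nat.card_pos.ne'

theorem sum_ite (w : W) (c : ℂ) : ∑ g, (if Y.wt g = w then c else 0) = Nat.card Y.B * q ^ C.l w * c := by
  rw [← Finset.sum_filter, Finset.sum_const, nsmul_eq_mul, ← Fintype.card_subtype, ← Nat.card_eq_fintype_card,
    Y.card]
  simp

/-- Bi-invariant elements. -/
def Bi (a : MonoidAlgebra ℂ G) : Prop := ∀ g g', Y.wt g = Y.wt g' → a.coeff g = a.coeff g'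

omit [Fintype G] [DecidableEq W] in
theorem bi_of {a : MonoidAlgebra ℂ G} (h1 : ∀ b ∈ Y.B, ∀ g, a.coeff (b * g) = a.coeff g)
    (h2 : ∀ b ∈ Y.B, ∀ g, a.coeff (g * b) = a.coeff g) : Y.Bi a := fun g g' h => by
  obtain ⟨b, hb, b', hb', rfl⟩ := (Y.wt_eq _ _).1 h
  rw [h2 _ hb', h1 _ hb]

omit [DecidableEq W] in
theorem bi_mul (x y : W → ℂ) (a : MonoidAlgebra ℂ G) : Y.Bi (Y.Φ x * a * Y.Φ y) := by
  refine Y.bi_of (fun b hb g => ?_) fun b hb g => ?_
  · rw [mul_assoc, coeff_mul_sum', coeff_mul_sum']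
    simp only [coeff_Φ, mul_assoc b, Y.wt_mul_left hb]
  · rw [coeff_mul_sum, coeff_mul_sum]
    simp only [coeff_Φ, ← mul_assoc _ g, Y.wt_mul_right hb]

omit [DecidableEq W] in
theorem Bi.exists_eq {Y : Hk C G q} {a : MonoidAlgebra ℂ G} (h : Y.Bi a) : ∃ x, Y.Φ x = a ∧
    ∀ w, (∀ g, Y.wt g = w → a.coeff g = 0) → x w = 0 := by
  classical
  refine ⟨fun w => if h : ∃ g, Y.wt g = w then Nat.card Y.B * a.coeff h.choose else 0,
    alg_ext fun g => ?_, fun w hw => ?_⟩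
  · have hg : ∃ g', Y.wt g' = Y.wt g := ⟨g, rfl⟩
    rw [coeff_Φ, dif_pos hg, inv_mul_cancel_left₀ Y.cardB_ne, h _ _ hg.choose_spec]
  · beta_reduce
    split_ifs with h
    · rw [hw _ h.choose_spec, mul_zero]
    · rfl

theorem T_one_mul (x : W → ℂ) : Y.T 1 * Y.Φ x = Y.Φ x := alg_ext fun g => by
  rw [coeff_mul_sum, Finset.sum_congr rfl
    (g := fun y => if Y.wt y = 1 then (Nat.card Y.B : ℂ)⁻¹ * (Y.Φ x).coeff g else 0) fun y _ => ?_,
    sum_ite, C.l_one, pow_zero, mul_one, mul_inv_cancel_left₀ Y.cardB_ne]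
  rw [coeff_T]
  split_ifs with h
  · rw [coeff_Φ, coeff_Φ, Y.wt_mul_left (inv_mem (Y.wt_eq_one.1 h))]
  · simp

theorem mul_T_one (x : W → ℂ) : Y.Φ x * Y.T 1 = Y.Φ x := alg_ext fun g => by
  rw [coeff_mul_sum', Finset.sum_congr rfl
    (g := fun y => if Y.wt y = 1 then (Nat.card Y.B : ℂ)⁻¹ * (Y.Φ x).coeff g else 0) fun y _ => ?_,
    sum_ite, C.l_one, pow_zero, mul_one, mul_inv_cancel_left₀ Y.cardB_ne]
  rw [coeff_T]
  split_ifs with h
  · rw [coeff_Φ, coeff_Φ, Y.wt_mul_right (inv_mem (Y.wt_eq_one.1 h)), mul_comm]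
  · simp

/-- The augmentation. -/
noncomputable def aug (G : Type*) [Group G] : MonoidAlgebra ℂ G →ₐ[ℂ] ℂ := MonoidAlgebra.lift ℂ ℂ G 1

omit [DecidableEq W] in
theorem aug_eq (a : MonoidAlgebra ℂ G) : aug G a = ∑ g, a.coeff g := by
  conv_lhs => rw [eq_sum_single a]
  simp [aug]

theorem aug_T (w : W) : aug G (Y.T w) = q ^ C.l w := by
  simp only [aug_eq, coeff_T, sum_ite]
  rw [mul_right_comm, mul_inv_cancel₀ Y.cardB_ne, one_mul]

theorem eq_of_supp {a : MonoidAlgebra ℂ G} (h : Y.Bi a) {u v : W}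
    (hs : ∀ g, a.coeff g ≠ 0 → Y.wt g = u ∨ Y.wt g = v) : ∃ c d : ℂ, a = c • Y.T u + d • Y.T v := by
  obtain ⟨x, rfl, hx⟩ := h.exists_eq
  refine ⟨x u, if u = v then 0 else x v, ?_⟩
  rw [T, T, ← map_smul, ← map_smul, ← map_add]
  congr 1
  funext w
  simp only [Pi.add_apply, Pi.smul_apply, Pi.single_apply]
  by_cases h1 : w = u
  · subst h1; by_cases h2 : w = v <;> simp [h2]
  · by_cases h2 : w = v
    · subst h2; simp [h1, Ne.symm h1]
    · simpa [h1, h2] using hx w fun g hg => by_contra fun h => (hs g h).elim (hg ▸ h1) (hg ▸ h2)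

theorem eq_of_supp' (hq : q ≠ 0) {a : MonoidAlgebra ℂ G} (h : Y.Bi a) {u : W}
    (hs : ∀ g, a.coeff g ≠ 0 → Y.wt g = u) : a = (aug G a / q ^ C.l u) • Y.T u := by
  obtain ⟨c, d, rfl⟩ := Y.eq_of_supp h (v := u) fun g hg => Or.inl (hs g hg)
  rw [← add_smul, map_smul, aug_T, smul_eq_mul, mul_div_cancel_right₀ _ (pow_ne_zero _ (by exact_mod_cast hq))]

theorem supp_T_mul_T {u v : W} {g : G} (h : (Y.T u * Y.T v).coeff g ≠ 0) :
    ∃ a b, Y.wt a = u ∧ Y.wt b = v ∧ g = a * b := by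
  rw [coeff_mul_sum] at h
  obtain ⟨y, -, hy⟩ := Finset.exists_ne_zero_of_sum_ne_zero h
  rw [coeff_T, coeff_T] at hy
  exact ⟨y, y⁻¹ * g, by by_contra h; simp [h] at hy, by by_contra h; simp [h] at hy, by simp⟩

theorem bi_T_mul_T (u v : W) : Y.Bi (Y.T u * Y.T v) := by simpa [T] using Y.bi_mul _ _ 1

theorem T_mul_pos (hq : q ≠ 0) {i : ι} {w : W} (h : C.l (C.s i * w) = C.l w + 1) :
    Y.T (C.s i) * Y.T w = Y.T (C.s i * w) := by
  rw [Y.eq_of_supp' hq (Y.bi_T_mul_T _ _) (u := C.s i * w) fun g hg => ?_, map_mul, aug_T, aug_T, h, C.l_s,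
    pow_one, pow_succ', div_self (mul_ne_zero (by exact_mod_cast hq) (pow_ne_zero _ (by exact_mod_cast hq))),
    one_smul]
  obtain ⟨a, b, ha, rfl, rfl⟩ := Y.supp_T_mul_T hg
  exact Y.mul_pos i a b ha h

theorem T_mul_self (hq : q ≠ 0) (i : ι) :
    Y.T (C.s i) * Y.T (C.s i) = (q : ℂ) • Y.T 1 + ((q : ℂ) - 1) • Y.T (C.s i) := by
  obtain ⟨c, d, e⟩ := Y.eq_of_supp (Y.bi_T_mul_T (C.s i) (C.s i)) (u := 1) (v := C.s i) fun g hg => by
    obtain ⟨a, b, ha, hb, rfl⟩ := Y.supp_T_mul_T hg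
    exact Y.mul_self i a b ha hb
  have hs : 1 ≠ C.s i := fun h => by simpa [← h, C.l_one] using C.l_s i
  have h1 := congrArg (fun a => a.coeff 1) e
  simp only [coeff_mul_sum, coeff_T, mul_one, Y.wt_inv, inv_eq_iff_eq_inv,
    inv_eq_of_mul_eq_one_right (C.sq i), ite_mul, zero_mul, coeff_add, coeff_smul, Finsupp.add_apply,
    Finsupp.smul_apply, Y.wt_one, if_true, hs, if_false, smul_eq_mul, mul_zero, add_zero] at h1
  rw [Finset.sum_congr rfl (g := fun x => if Y.wt x = C.s i then (Nat.card Y.B : ℂ)⁻¹ * (Nat.card Y.B : ℂ)⁻¹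
    else 0) fun x _ => by split_ifs <;> rfl, sum_ite, C.l_s, pow_one] at h1
  have hB := Y.cardB_ne
  obtain rfl : c = q := by field_simp at h1; exact h1.symm
  have h2 := congrArg (aug G) e
  simp only [map_mul, map_add, map_smul, aug_T, C.l_s, C.l_one, pow_one, pow_zero, smul_eq_mul] at h2
  have hq' : (q : ℂ) ≠ 0 := by exact_mod_cast hq
  rw [e, show d = q - 1 from mul_right_cancel₀ hq' (by linear_combination -h2)]

variable [Fintype W]

theorem Φ_eq_sum (x : W → ℂ) : Y.Φ x = ∑ w, x w • Y.T w := by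
  conv_lhs => rw [pi_eq_sum_univ' x]
  simp [T]

theorem Φ_Ls (hq : q ≠ 0) (i : ι) (x : W → ℂ) : Y.Φ (C.Ls (q : ℂ) i *ᵥ x) = Y.T (C.s i) * Y.Φ x := by
  conv_lhs => rw [pi_eq_sum_univ' x]
  rw [Y.Φ_eq_sum x, mulVec_sum, map_sum, Finset.mul_sum]
  refine Finset.sum_congr rfl fun w _ => ?_
  rw [mulVec_smul, map_smul, mul_smul_comm, mulVec_single_one]
  congr 1
  by_cases h : C.l (C.s i * w) = C.l w + 1
  · rw [Y.T_mul_pos hq h, T]
    congr 1
    funext u; simp [HkW.Ls, h, Pi.single_apply]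
  · have h1 : C.s i * (C.s i * w) = w := by rw [← mul_assoc, C.sq, one_mul]
    have h2 := Y.T_mul_pos hq (i := i) (w := C.s i * w) (by rw [h1]; have := C.step i w; omega)
    rw [h1] at h2
    conv_rhs => rw [← h2, ← mul_assoc, Y.T_mul_self hq, add_mul, smul_mul_assoc, smul_mul_assoc, h2]
    rw [show Y.T 1 * Y.T (C.s i * w) = Y.T (C.s i * w) from Y.T_one_mul _, T, T, ← map_smul, ← map_smul,
      ← map_add]
    congr 1
    funext u; simp [HkW.Ls, h, Pi.single_apply]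

theorem Φ_Lw (hq : q ≠ 0) (w : W) (x : W → ℂ) : Y.Φ (C.Lw (q : ℂ) w *ᵥ x) = Y.T w * Y.Φ x := by
  have key : ∀ L : List ι, L.length = C.l (L.map C.s).prod →
      Y.Φ ((L.map (C.Ls (q : ℂ))).prod *ᵥ x) = Y.T (L.map C.s).prod * Y.Φ x := fun L => by
    induction L with
    | nil => intro _; simp [T_one_mul]
    | cons i L ih =>
      intro h
      simp only [List.map_cons, List.prod_cons, List.length_cons] at h ⊢
      have h1 := C.l_le L
      have h2 := C.step i (L.map C.s).prod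
      rw [← mulVec_mulVec, Y.Φ_Ls hq, ih (by omega), ← mul_assoc, Y.T_mul_pos hq (by omega)]
  have := (C.exists_red w).choose_spec
  have h := key (C.red w) (by rw [HkW.red, this.1, this.2])
  rwa [HkW.red, this.1] at h

omit [Fintype W] in
theorem T_mul_single (hq : q ≠ 0) (g : G) : Y.T 1 * MonoidAlgebra.single g 1 * Y.T 1 =
    ((q : ℂ) ^ C.l (Y.wt g))⁻¹ • Y.T (Y.wt g) := by
  have hb : Y.Bi (Y.T 1 * MonoidAlgebra.single g 1 * Y.T 1) := Y.bi_mul _ _ _
  rw [Y.eq_of_supp' hq hb (u := Y.wt g) fun x hx => ?_]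
  · simp only [map_mul, aug_T, C.l_one]
    simp [aug]
  · rw [coeff_mul_sum] at hx
    obtain ⟨y, -, hy⟩ := Finset.exists_ne_zero_of_sum_ne_zero hx
    rw [coeff_mul_single_apply, coeff_T, coeff_T] at hy
    refine ((Y.wt_eq _ _).2 ⟨y * g⁻¹, Y.wt_eq_one.1 ?_, y⁻¹ * x, Y.wt_eq_one.1 ?_, by simp⟩).symm <;>
      by_contra h <;> simp [h] at hy

theorem T_mul_gam (hq : q ≠ 0) (x : W → ℂ) : Y.T 1 * gam (Y.Φ x) =
    (Nat.card Y.B : ℂ) • ∑ w, ((q : ℂ) ^ C.l w⁻¹)⁻¹ • (Y.T w * Y.Φ x * Y.T w⁻¹) := by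
  have h11 : Y.T 1 * Y.T 1 = Y.T 1 := Y.T_one_mul _
  have h1 : Y.T 1 * gam (Y.Φ x) = Y.T 1 * gam (Y.Φ x) * Y.T 1 := by
    rw [mul_assoc, Zc_comm (gam_mem _), ← mul_assoc, h11]
  rw [h1, gam_apply, Finset.mul_sum, Finset.sum_mul, Finset.smul_sum,
    ← Finset.sum_fiberwise (s := Finset.univ) (g := Y.wt)]
  refine Finset.sum_congr rfl fun w _ => ?_
  rw [Finset.sum_congr rfl (g := fun _ => (((q : ℂ) ^ C.l w)⁻¹ * ((q : ℂ) ^ C.l w⁻¹)⁻¹) •
    (Y.T w * Y.Φ x * Y.T w⁻¹)) fun g hg => ?_, Finset.sum_const, ← Fintype.card_subtype,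
    ← Nat.card_eq_fintype_card, Y.card, ← Nat.cast_smul_eq_nsmul ℂ, smul_smul, smul_smul]
  · congr 1
    have hq' : (q : ℂ) ≠ 0 := by exact_mod_cast hq
    push_cast
    field_simp
  · obtain rfl : Y.wt g = w := by simpa using hg
    calc _ = (Y.T 1 * MonoidAlgebra.single g 1 * Y.T 1) * Y.Φ x *
          (Y.T 1 * MonoidAlgebra.single g⁻¹ 1 * Y.T 1) := by
          conv_lhs => rw [← Y.T_one_mul x, ← Y.mul_T_one x]
          simp only [mul_assoc]
      _ = _ := by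
          rw [Y.T_mul_single hq, Y.T_mul_single hq, Y.wt_inv, smul_mul_assoc, smul_mul_assoc,
            mul_smul_comm, smul_smul]

theorem Φ_Gm (hq : q ≠ 0) (x : W → ℂ) : Y.Φ (C.Gm (q : ℂ) *ᵥ x) =
    ((q : ℂ) ^ (∑ w, C.l w) * (Nat.card Y.B : ℂ)⁻¹) • (Y.T 1 * gam (Y.Φ x)) := by
  have hq' : (q : ℂ) ≠ 0 := by exact_mod_cast hq
  have h1 : C.Gm (q : ℂ) *ᵥ x = ∑ v, x v • ∑ w, (q : ℂ) ^ (∑ w, C.l w - C.l w⁻¹) •
      (C.Lw (q : ℂ) w *ᵥ (C.Lw (q : ℂ) v *ᵥ Pi.single w⁻¹ 1)) := by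
    funext u
    simp only [mulVec_mulVec]
    simp only [mulVec_single_one, Finset.sum_apply, Pi.smul_apply, smul_eq_mul, col_apply]
    simp only [mulVec, dotProduct, HkW.Gm, Matrix.of_apply, mul_comm (x _)]
  rw [h1, Y.T_mul_gam hq, smul_smul, mul_assoc, inv_mul_cancel₀ Y.cardB_ne, mul_one, Y.Φ_eq_sum x]
  simp only [map_sum, map_smul, Y.Φ_Lw hq, Finset.smul_sum, Finset.mul_sum, Finset.sum_mul, smul_smul,
    mul_smul_comm, smul_mul_assoc]
  rw [Finset.sum_comm]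
  refine Finset.sum_congr rfl fun w _ => Finset.sum_congr rfl fun v _ => ?_
  rw [pow_sub₀ _ hq' (Finset.single_le_sum (f := C.l) (fun _ _ => Nat.zero_le _) (Finset.mem_univ _)),
    mul_assoc (Y.T w), mul_comm (x v), mul_assoc]
  rfl

theorem spec (hq : q ≠ 0) : C.Spec q (Nat.card {χ : IrrCharacter G // ev χ (Y.T 1) ≠ 0}) := by
  have hq' : (q : ℂ) ≠ 0 := by exact_mod_cast hq
  refine trace_formula (Y.T_one_mul _) Y.Φ (fun x y h => funext fun w => ?_) Y.T_one_mul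
    (fun a => (Y.bi_mul _ _ a).exists_eq.imp fun _ h => h.1)
    (mul_ne_zero (pow_ne_zero _ hq') (inv_ne_zero Y.cardB_ne)) (Y.Φ_Gm hq) fun x => ?_
  · have : Nonempty {g // Y.wt g = w} := (Nat.card_ne_zero.1 (by
      rw [Y.card]; exact mul_ne_zero Nat.card_pos.ne' (pow_ne_zero _ hq))).1
    obtain ⟨g, rfl⟩ := this
    exact mul_left_cancel₀ (inv_ne_zero Y.cardB_ne) (congrArg (fun a => a.coeff g) h)
  · have := Y.Φ_Gm hq (Pi.single 1 1)
    rw [← T] at this
    rw [← this, Y.Φ_eq_sum (_ *ᵥ Pi.single 1 1), HkW.Lc, sum_mulVec, map_sum, Finset.sum_mul]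
    simp only [smul_mulVec, map_smul, Y.Φ_Lw hq, mulVec_single_one, col_apply, smul_mul_assoc]

end Hk

end Cfsg.Agent.H38
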