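import Cfsg.Agent.H38.Hecke2
import Cfsg.Agent.H38.StMat
import Cfsg.Agent.H38.CoxW
import Cfsg.Agent.H5.ClassFn

/-! The Hecke data of a group with root subgroups, and of its Weyl group; the number of constituents
of `1_B^G` is the number of conjugacy classes of the Weyl group. -/

set_option autoImplicit false

namespace Cfsg.Agent.H38

open Cfsg Cfsg.Agent.H32 Cfsg.Lie Cfsg.Agent.H37

section Abstract

variable {ι R : Type} [Fintype ι] [DecidableEq ι] [Fintype R]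

/-- The Weyl group with its length function. -/
noncomputable def RS.hkW (P : RS ι R) : HkW P.W ι where
  s i := ⟨P.σ i, P.σ_mem_W i⟩
  l w := P.inv w
  sq i := Subtype.ext (P.σ_mul_self i)
  step i w := by
    by_cases h : P.Pos ((w : Equiv.Perm R)⁻¹ (P.sp i))
    · exact Or.inl (P.inv_σ_mul w.2 h)
    · exact Or.inr (P.inv_σ_mul' w.2 h).symm
  desc w hw := by
    by_contra h
    refine hw (Subtype.ext (inv_eq_one.1 (P.eq_one_of_pos' (inv_mem w.2) fun i => by_contra fun hi =>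
      h ⟨i, (P.inv_σ_mul' w.2 hi).symm⟩)))
  l_one := by simp [RS.inv, RS.invSet]

variable {P : RS ι R} {F : Type*} [Field F] {G : Type*} [Group G] {X : RG P F G}

theorem RG.Faithful.exists_wt (hX : X.Faithful) (hG : X.grp = ⊤) : ∃ wt : G → P.W,
    ∀ g n w, X.Rep n w → ((wt g : Equiv.Perm R) = w ↔ ∃ b ∈ X.B, ∃ b' ∈ X.B, g = b * n * b') := by
  choose b hb n w hn u hu e using fun g : G => X.exists_bruhat (g := g) (hG ▸ Subgroup.mem_top g)
  refine ⟨fun g => ⟨w g, (hn g).mem_W⟩, fun g m v hm => ⟨?_, ?_⟩⟩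
  · rintro rfl
    exact ⟨_, mul_mem (hb g) (X.H_le_B ((hn g).mul_inv_mem_H hm)), _, X.U_le_B (X.Um_le _ (hu g)),
      (e g).trans (by group)⟩
  · rintro ⟨c, hc, c', hc', e'⟩
    exact hX.weyl_unique' (hn g) hm (hb g) hc (X.U_le_B (X.Um_le _ (hu g))) hc' ((e g).symm.trans e')

theorem RG.Faithful.exists_hk [Finite F] (hX : X.Faithful) (hG : X.grp = ⊤) :
    ∃ Y : Hk P.hkW G (Nat.card F), Y.B = X.B := by
  obtain ⟨wt, h⟩ := hX.exists_wt hG
  have hd : ∀ g, ∃ n, X.Rep n (wt g) ∧ ∃ b ∈ X.B, ∃ b' ∈ X.B, g = b * n * b' := fun g => by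
    obtain ⟨n, hn⟩ := X.exists_rep (wt g).2
    exact ⟨n, hn, (h g n _ hn).1 rfl⟩
  refine ⟨⟨X.B, wt, fun g g' => ?_, Subtype.ext ((h 1 1 1 X.rep_one).2 ⟨1, one_mem _, 1, one_mem _, by simp⟩),
    fun g => ?_, fun w => ?_, fun i g g' hg hl => ?_, fun i g g' hg hg' => ?_⟩, rfl⟩
  · obtain ⟨n, hn, b, hb, b', hb', e⟩ := hd g
    rw [eq_comm, ← Subtype.val_inj, h g' n _ hn]
    constructor
    · rintro ⟨c, hc, c', hc', rfl⟩
      exact ⟨_, mul_mem hc (inv_mem hb), _, mul_mem (inv_mem hb') hc', by rw [e]; group⟩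
    · rintro ⟨c, hc, c', hc', rfl⟩
      exact ⟨_, mul_mem hc hb, _, mul_mem hb' hc', by rw [e]; group⟩
  · obtain ⟨n, hn, b, hb, b', hb', e⟩ := hd g
    exact Subtype.ext ((h _ _ _ hn.inv).2 ⟨_, inv_mem hb', _, inv_mem hb, by rw [e]; group⟩)
  · obtain ⟨n, hn⟩ := X.exists_rep w.2
    rw [show P.hkW.l w = P.inv w from rfl, ← hX.card_Um w.2, ← Nat.card_prod]
    refine (Nat.card_eq_of_bijective (fun p : X.B × X.Um w => (⟨p.1 * n * p.2, Subtype.ext
      ((h _ n _ hn).2 ⟨_, p.1.2, _, X.U_le_B (X.Um_le _ p.2.2), rfl⟩)⟩ : {g // wt g = w})) ⟨?_, ?_⟩).symm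
    · rintro ⟨b, u⟩ ⟨b', u'⟩ e
      obtain ⟨e1, e2⟩ := hX.bruhat_unique_fixed hn b.2 b'.2 u.2 u'.2 (congrArg Subtype.val e)
      rw [Subtype.ext e1, Subtype.ext e2]
    · rintro ⟨g, hg⟩
      obtain ⟨b, hb, b', hb', rfl⟩ := (h g n _ hn).1 (congrArg Subtype.val hg)
      obtain ⟨b₁, h₁, u, hu, e⟩ := hn.exists_Um hb hb'
      exact ⟨(⟨b₁, h₁⟩, ⟨u, hu⟩), Subtype.ext e.symm⟩
  · obtain ⟨b, hb, b', hb', rfl⟩ := (h g _ _ (X.rep_ns i)).1 (congrArg Subtype.val hg)
    obtain ⟨n, hn, c, hc, c', hc', e⟩ := hd g'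
    have hpos : P.Pos ((wt g' : Equiv.Perm R)⁻¹ (P.sp i)) := by_contra fun hi => by
      have h1 := P.inv_σ_mul' (wt g').2 hi
      have h2 : P.inv (P.σ i * wt g') = P.inv (wt g') + 1 := hl
      omega
    obtain ⟨b₁, h₁, b₂, h₂, e'⟩ := X.ns_mul_B_mul_of_pos hn hpos (mul_mem hb' hc)
    refine Subtype.ext ((h _ _ _ ((X.rep_ns i).mul hn)).2 ⟨_, mul_mem hb h₁, _, mul_mem h₂ hc', ?_⟩)
    calc _ = b * (X.ns i * (b' * c) * n) * c' := by rw [e]; group
      _ = _ := by rw [e']; group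
  · obtain ⟨b, hb, b', hb', rfl⟩ := (h g _ _ (X.rep_ns i)).1 (congrArg Subtype.val hg)
    obtain ⟨c, hc, c', hc', rfl⟩ := (h g' _ _ (X.rep_ns i)).1 (congrArg Subtype.val hg')
    have e : b * X.ns i * b' * (c * X.ns i * c') = b * (X.ns i * (b' * c) * X.ns i) * c' := by group
    rcases X.ns_mul_B_mul (X.rep_ns i) i (mul_mem hb' hc) with ⟨b₁, h₁, b₂, h₂, e'⟩ | ⟨b₁, h₁, b₂, h₂, e'⟩
    · refine Or.inl (Subtype.ext ((h _ _ _ ((X.rep_ns i).mul (X.rep_ns i))).2
        ⟨_, mul_mem hb h₁, _, mul_mem h₂ hc', by rw [e, e']; group⟩ |>.trans (P.σ_mul_self i)))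
    · exact Or.inr (Subtype.ext ((h _ _ _ (X.rep_ns i)).2
        ⟨_, mul_mem hb h₁, _, mul_mem h₂ hc', by rw [e, e']; group⟩))

end Abstract

/-- The group `W` itself, with trivial Borel subgroup and parameter one. -/
def HkW.self {W ι : Type} [Group W] (C : HkW W ι) : Hk C W 1 where
  B := ⊥
  wt := id
  wt_eq g g' := by simp [eq_comm]
  wt_one := rfl
  wt_inv _ := rfl
  card w := by simp
  mul_pos i g g' h _ := by simp [← h]
  mul_self i g g' h h' := Or.inl (by rw [show g = _ from h, show g' = _ from h']; exact C.sq i)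

namespace Hk

variable {W ι : Type} [Group W] {C : HkW W ι} {G : Type*} [Group G] {q : ℕ} (Y : Hk C G q) [Fintype G]
  [DecidableEq W]

theorem ev_T_one (χ : G → ℂ) : ev χ (Y.T 1) = av Y.B χ := by
  rw [ev_eq_sum, av, Finset.mul_sum]
  refine Finset.sum_congr rfl fun g _ => ?_
  rw [coeff_T]
  split_ifs with h
  · rw [ind_of_mem (Y.wt_eq_one.1 h), one_mul]
  · rw [ind_of_notMem (mt Y.wt_eq_one.2 h)]; simp

theorem ev_ne_zero_iff (χ : IrrCharacter G) : ev χ (Y.T 1) ≠ 0 ↔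
    ∃ φ : G → ℂ, IsCharacter G φ ∧ fixedPointCharacter Y.B = (χ : G → ℂ) + φ := by
  have hπ : IsCharacter G (fixedPointCharacter Y.B) := H5.isCharacter_perm (G ⧸ Y.B)
  have hχ := H5.isCharacter_of_isIrr χ.2
  have h1 : ev χ (Y.T 1) = classInner (fixedPointCharacter Y.B) χ := by
    rw [ev_T_one, ← av_mul_pc (K := ⊤) le_top fun x _ g => H5.isClassFunction_of_isIrr χ.2 g x, pc_top,
      H5.classInner_comm_of_isCharacter hπ hχ, ← av_top]
    simp [fixedPointCharacter]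
  rw [h1]
  refine ⟨fun h => ⟨_, H5.isCharacter_sub_of_constituent hπ χ.2 h, by simp⟩, ?_⟩
  rintro ⟨φ, hφ, e⟩
  obtain ⟨n, hn⟩ := H5.exists_nat_classInner hφ hχ
  rw [e, H5.classInner_add_left, H5.classInner_irr_self χ.2, hn]
  exact_mod_cast Nat.add_one_ne_zero n ∘ (add_comm n 1).trans

end Hk

theorem HkW.spec_self {W ι : Type} [Group W] [Fintype W] [DecidableEq W] (C : HkW W ι) :
    C.Spec 1 (Nat.card (ConjClasses W)) := by
  have := C.self.spec one_ne_zero
  rw [Nat.cast_one, Nat.card_congr (Equiv.subtypeUnivEquiv fun χ => ?_), H5.card_irrCharacter] at this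
  · exact this
  · rw [Hk.ev_T_one, av_congr (f' := fun _ => (χ : W → ℂ) 1) fun g hg => by rw [Subgroup.mem_bot.1 hg],
      av_const]
    exact H5.degree_ne_zero χ.2

variable {D : ChevalleyDatum} [Chev D] (hD : IsChev D)
include hD

open Classical in
theorem spec_group (F : Type*) [Field F] [Finite F] [Fintype (rs D).W] : (rs D).hkW.Spec (Nat.card F)
    (Nat.card {χ : IrrCharacter (D.group F) // ∃ φ : D.group F → ℂ, IsCharacter (D.group F) φ ∧
      fixedPointCharacter ((D.borelSubgroup F).subgroupOf (D.group F)) = (χ : D.group F → ℂ) + φ}) := by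
  have := Fintype.ofFinite (D.group F)
  obtain ⟨Y, hY⟩ := ((mg_faithful hD F).sub (mg_grp hD F)).exists_hk (RG.sub_grp _ _)
  have := Y.spec Nat.card_pos.ne'
  simp only [Y.ev_ne_zero_iff, hY, RG.sub_B, mg_B] at this
  exact this

theorem card_constituents (F : Type*) [Field F] [Finite F] :
    Nat.card {χ : IrrCharacter (D.group F) // ∃ φ : D.group F → ℂ, IsCharacter (D.group F) φ ∧
      fixedPointCharacter ((D.borelSubgroup F).subgroupOf (D.group F)) = (χ : D.group F → ℂ) + φ} =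
      Nat.card (ConjClasses (H39.coxM D).Group) := by
  classical
  have := Fintype.ofFinite (rs D).W
  have : Fact (Nat.Prime 2) := ⟨Nat.prime_two⟩
  rw [(rs D).hkW.spec_unique (fun m => (2 : ℂ) ^ (m + 1)) (fun a b h => by
      have : 2 ^ (a + 1) = 2 ^ (b + 1) := by beta_reduce at h; exact_mod_cast h
      simpa using this) (fun m => ⟨_, by
      have := spec_group hD (GaloisField 2 (m + 1))
      rw [GaloisField.card 2 _ (by omega)] at this
      exact_mod_cast this⟩) (spec_group hD F) (rs D).hkW.spec_self]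
  refine (Nat.card_eq_of_bijective (ConjClasses.map (coxEquiv hD).toMonoidHom)
    ⟨?_, ConjClasses.map_surjective (coxEquiv hD).surjective⟩).symm
  rintro ⟨a⟩ ⟨b⟩ h
  have := (coxEquiv hD).symm.toMonoidHom.map_isConj (ConjClasses.mk_eq_mk_iff_isConj.1 h)
  exact ConjClasses.mk_eq_mk_iff_isConj.2 (by simpa using this)

end Cfsg.Agent.H38
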