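import Cfsg.Agent.H38.PcTree
import Cfsg.Agent.H17.MatG
import Cfsg.Agent.H29.ODict
import Cfsg.Agent.H28.StdForms

/-! Elements of order three of `Ω(7, 3)`: representatives of the conjugacy classes. -/

set_option autoImplicit false
set_option maxRecDepth 100000
set_option linter.style.haveILetI false

namespace Cfsg.Agent.H38.O7

open Matrix QuadraticMap Subgroup Cfsg.Agent.H28 Cfsg.Agent.H29 Cfsg.Agent.H17 Cfsg.Agent.H38.PT

local notation "𝔽" => ZMod 3
local notation "ι" => Unit ⊕ (Fin 3 ⊕ Fin 3)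
local notation "𝐐" => qOdd 3 (ZMod 3)
local notation "Ω" => Omega (ZMod 3) (qOdd 3 (ZMod 3))
local notation "PΩ" => POmega (ZMod 3) (qOdd 3 (ZMod 3))

/-- the numbering of the basis -/
def e7 : Fin 7 ≃ ι where
  toFun := ![.inr (.inl 0), .inr (.inl 1), .inr (.inl 2), .inr (.inr 0), .inr (.inr 1), .inr (.inr 2),
    .inl ()]
  invFun := Sum.elim (fun _ => 6) (Sum.elim ![0, 1, 2] ![3, 4, 5])
  left_inv := by decide
  right_inv := by decide

/-- matrices of isometries -/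
def mu : O 𝐐 →* Matrix (Fin 7) (Fin 7) 𝔽 where
  toFun s := (mat s).submatrix e7 e7
  map_one' := by simp [mat]
  map_mul' s t := (submatrix_mul_equiv (mat s) (mat t) e7 e7 e7).symm

theorem mu_injective : Function.Injective mu := fun s t h =>
  Subtype.ext (Units.ext (Matrix.ext fun i j => by
    have := congrFun (congrFun h (e7.symm i)) (e7.symm j)
    simpa [mu] using this))

theorem mu_mulVec (s : O 𝐐) (v : Fin 7 → 𝔽) : mu s *ᵥ v = rho 𝐐 s (v ∘ e7.symm) ∘ e7 :=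
  submatrix_mulVec_equiv _ _ _ _

theorem mu_entry (s : O 𝐐) (r c : Fin 7) : mu s r c = rho 𝐐 s (Pi.single (e7 c) 1) (e7 r) := by
  change _ = (mat s *ᵥ Pi.single (e7 c) 1) (e7 r)
  rw [mulVec_single_one]; rfl

/-- the Gram matrix -/
def gr (a c : Fin 7) : 𝔽 := if c = ![3, 4, 5, 0, 1, 2, 6] a then (if a = 6 then 2 else 1) else 0

theorem pol_single : ∀ a c : Fin 7, polar 𝐐 (Pi.single (e7 a) 1) (Pi.single (e7 c) 1) = gr a c := by
  simp only [coe_qOdd, polar_quadFormOdd]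
  decide +kernel

theorem q_single : ∀ a : Fin 7, 𝐐 (Pi.single (e7 a) 1) = if a = 6 then 1 else 0 := by
  simp only [coe_qOdd, quadFormOdd]
  decide +kernel

/-- the matrix of a root element -/
def sgM (a b : Fin 7) (s : 𝔽) : Matrix (Fin 7) (Fin 7) 𝔽 := Matrix.of fun r c =>
  (if r = c then 1 else 0) + gr a c * (s * if r = b then 1 else 0) -
    (s * gr b c + s ^ 2 * (if b = 6 then 1 else 0) * gr a c) * (if r = a then 1 else 0)

/-- the root elements -/
noncomputable def sg (a b : Fin 7) (s : 𝔽) (h1 : a ≠ 6) (h2 : gr a b = 0) : Ω :=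
  ⟨eich 𝐐 (Pi.single (e7 a) 1) (s • Pi.single (e7 b) 1) (by rw [q_single, if_neg h1])
    (by rw [B_smul_right, pol_single, h2, mul_zero]),
    eich_mem_omega (qOdd_nondeg 3 (by decide)) (eichOK_of_two_ne_zero (by decide)) _ _⟩

theorem mu_sg (a b : Fin 7) (s : 𝔽) (h1 : a ≠ 6) (h2 : gr a b = 0) :
    mu (sg a b s h1 h2).1 = sgM a b s := by
  ext r c
  rw [mu_entry, sg, rho_eich, B_smul_left, Q_smul, pol_single, pol_single, q_single]
  simp only [sgM, Pi.single_apply, Pi.add_apply, Pi.sub_apply, Pi.smul_apply, smul_eq_mul, of_apply,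
    EmbeddingLike.apply_eq_iff_eq]

/-- the letters -/
def lt (l : ℕ) : Fin 7 × Fin 7 × 𝔽 := ([(0, 4, 1), (1, 5, 1), (2, 6, 1), (0, 5, 1), (1, 6, 1), (0, 6, 1), (1, 2, 1), (0, 2, 1), (0, 1, 1),
    (0, 4, 2), (1, 5, 2), (2, 6, 2), (0, 5, 2), (1, 6, 2), (0, 6, 2), (1, 2, 2), (0, 2, 2), (0, 1, 2),
    (3, 1, 1), (4, 2, 1), (5, 6, 1), (3, 2, 1), (4, 6, 1), (3, 6, 1), (4, 5, 1), (3, 5, 1), (3, 4, 1),
    (3, 1, 2), (4, 2, 2), (5, 6, 2), (3, 2, 2), (4, 6, 2), (3, 6, 2), (4, 5, 2), (3, 5, 2), (3, 4, 2)] : List (Fin 7 × Fin 7 × 𝔽)).getD l (0, 0, 0)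

theorem lt_ok : ∀ l < 36, (lt l).1 ≠ 6 ∧ gr (lt l).1 (lt l).2.1 = 0 := by decide +kernel

/-- the root elements -/
noncomputable def g (l : ℕ) : Ω :=
  if h : l < 36 then sg (lt l).1 (lt l).2.1 (lt l).2.2 (lt_ok l h).1 (lt_ok l h).2 else 1

/-- the engine -/
abbrev E : Eng := ⟨3, 7, 8, 2, 5, 43, 7⟩

/-- the matrices of the letters -/
def mats : List (List ℕ) := [[513, 256, 65536, 16777216, 4311744512, 1099511627776, 281474976710656], [1, 131328, 65536,
    16777216, 4294967296, 1103806595072, 281474976710656], [1, 256, 283674000031744, 16777216,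
    4294967296, 1099511627776, 282574488338432], [131073, 256, 65536, 16777216, 4294967296,
    1099528404992, 281474976710656], [1, 281483566645504, 65536, 16777216, 4294967296, 1099511627776,
    281479271677952], [281475010265089, 256, 65536, 16777216, 4294967296, 1099511627776,
    281474993487872], [1, 2199023255808, 4295032832, 16777216, 4294967296, 1099511627776,
    281474976710656], [2199023255553, 256, 16842752, 16777216, 4294967296, 1099511627776,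
    281474976710656], [8589934593, 16777472, 65536, 16777216, 4294967296, 1099511627776,
    281474976710656], [257, 256, 65536, 16777216, 4328521728, 1099511627776, 281474976710656], [1,
    65792, 65536, 16777216, 4294967296, 1108101562368, 281474976710656], [1, 256, 565148976742400,
    16777216, 4294967296, 1099511627776, 283673999966208], [65537, 256, 65536, 16777216, 4294967296,
    1099545182208, 281474976710656], [1, 562958543356160, 65536, 16777216, 4294967296, 1099511627776,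
    281483566645248], [562949986975745, 256, 65536, 16777216, 4294967296, 1099511627776,
    281475010265088], [1, 1099511628032, 8590000128, 16777216, 4294967296, 1099511627776,
    281474976710656], [1099511627777, 256, 33619968, 16777216, 4294967296, 1099511627776,
    281474976710656], [4294967297, 33554688, 65536, 16777216, 4294967296, 1099511627776,
    281474976710656], [1, 257, 65536, 8606711808, 4294967296, 1099511627776, 281474976710656], [1, 256,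
    65792, 16777216, 2203318222848, 1099511627776, 281474976710656], [1, 256, 65536, 16777216,
    4294967296, 282574488469504, 281474976776192], [1, 256, 65537, 2199040032768, 4294967296,
    1099511627776, 281474976710656], [1, 256, 65536, 16777216, 281479271678464, 1099511627776,
    281474976710912], [1, 256, 65536, 281474993487874, 4294967296, 1099511627776, 281474976710657], [1,
    256, 65536, 16777216, 4295098368, 1099511628032, 281474976710656], [1, 256, 65536, 16908288,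
    4294967296, 1099511627777, 281474976710656], [1, 256, 65536, 16777728, 4294967297, 1099511627776,
    281474976710656], [1, 258, 65536, 4311744512, 4294967296, 1099511627776, 281474976710656], [1, 256,
    66048, 16777216, 1103806595072, 1099511627776, 281474976710656], [1, 256, 65536, 16777216,
    4294967296, 564049465180160, 281474976841728], [1, 256, 65538, 1099528404992, 4294967296,
    1099511627776, 281474976710656], [1, 256, 65536, 16777216, 562954248389120, 1099511627776,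
    281474976711168], [1, 256, 65536, 562949970198530, 4294967296, 1099511627776, 281474976710658], [1,
    256, 65536, 16777216, 4295032832, 1099511628288, 281474976710656], [1, 256, 65536, 16842752,
    4294967296, 1099511627778, 281474976710656], [1, 256, 65536, 16777472, 4294967298, 1099511627776,
    281474976710656]]

theorem mats_ok : MatsOK E mats := matsOK_of (by decide) (by decide +kernel)

theorem mu_g (l : ℕ) : mu (g l).1 = lmat E mats l := by
  by_cases h : l < 36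
  · have : ∀ l < 36, sgM (lt l).1 (lt l).2.1 (lt l).2.2 = lmat E mats l := by decide +kernel
    rw [g, dif_pos h, mu_sg, this l h]
  · rw [g, dif_neg h, lmat_of_le E (not_lt.1 h)]
    exact map_one mu

theorem mu_g' {l : ℕ} (h : l < 9) : mu (g l).1 = sgM (lt l).1 (lt l).2.1 (lt l).2.2 := by
  rw [g, dif_pos (by omega), mu_sg]

theorem mu_ev (w : List ℕ) : mu (ev g w).1 = (w.map (lmat E mats)).prod := by
  induction w with
  | nil => exact map_one mu
  | cons a w ih => rw [ev_cons, Subgroup.coe_mul, map_mul, ih, mu_g, List.map_cons, List.prod_cons]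

/-- equality of words -/
noncomputable def eqW (a b : List ℕ) : Bool := meqAt E 7 mats [(a, b)] 0

theorem eqW_sound (a b : List ℕ) (h : eqW a b = true) : ev g a = ev g b :=
  Subtype.ext (mu_injective (by
    rw [mu_ev, mu_ev]
    exact meq_sound mats_ok (m := 7) (J := 1) (by decide) (by decide +kernel) (pairs := [(a, b)])
      (fun j hj => by obtain rfl : j = 0 := by omega
                      exact h) (a, b) List.mem_cons_self))

/-- commutators -/
def cw (j k : ℕ) : List ℕ := ([[], [3], [], [], [5, 8], [], [7], [], [], [12], [], [4, 6], [], [], [], [], [8], [], [], [13, 15],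
    [], [14, 16], [15], [16], [], [], [], [], [], [5, 7], [], [], [], [17], [], [], [14, 17], [], [6],
    [], [], [17], [], [], [], [], [], [7], [], [8], [], [], [], [], [16], [], [], [8], [], [], [], [],
    [], [], [17], [], [], [], [], [], [], [], [], [], [], [], [], [], [], [], []] : List (List ℕ)).getD (9 * j + k) []

/-- invariant coordinate subspaces -/
def ts (k : ℕ) : List (Fin 7) × Fin 7 × Fin 7 :=
  ([([0, 1, 2, 3, 5, 6], 4, 3), ([0, 1, 2, 4, 6], 5, 4), ([0, 1, 5], 6, 5), ([0, 1, 2, 3, 6], 5, 3),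
    ([0, 2, 4], 6, 4), ([1, 2, 3], 6, 3), ([0, 4], 2, 4), ([1, 3], 2, 3), ([3], 1, 3)] : List (List (Fin 7) × Fin 7 × Fin 7)).getD k ([], 0, 0)

theorem pc : Pc g 9 := by
  have h1 : ∀ l < 9, eqW [l, l, l] [] = true := by decide +kernel
  have h2 : ∀ l < 9, eqW [l + 9, l] [] = true := by decide +kernel
  have h3 : ∀ j < 9, ∀ k < 9, (inW 9 (k + 1) (cw j k) &&
      eqW [k + 9, j + 9, k, j] (cw j k)) = true := by decide +kernel
  have h4 : ∀ k < 9, ∀ l < 9, (Nat.ble l k || (List.finRange 7).all fun a => (ts k).1.contains a ||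
      (ts k).1.all fun c => decide (sgM (lt l).1 (lt l).2.1 (lt l).2.2 a c = 0)) = true := by
    decide +kernel
  have h4' : ∀ k < 9, (ts k).2.1 ∉ (ts k).1 ∧ (ts k).2.2 ∈ (ts k).1 ∧
      sgM (lt k).1 (lt k).2.1 (lt k).2.2 (ts k).2.1 (ts k).2.2 ≠ 0 := by decide +kernel
  have hc : ∀ l < 9, g l ^ 3 = 1 := fun l hl => by
    simpa [ev, pow_three] using eqW_sound _ _ (h1 l hl)
  have hi : ∀ l < 9, g (l + 9) = (g l)⁻¹ := fun l hl => by
    rw [eq_inv_iff_mul_eq_one]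
    simpa [ev] using eqW_sound _ _ (h2 l hl)
  refine ⟨hc, hi, fun j hj k hk => ?_, fun k hk hm => ?_⟩
  · obtain ⟨a, b⟩ := Bool.and_eq_true_iff.1 (h3 j hj k hk)
    have := eqW_sound _ _ b
    have e := ev_mem hi a
    rw [← this] at e
    simpa [ev, hi k hk, hi j hj, mul_assoc] using e
  · obtain ⟨b, c, d⟩ := h4' k hk
    have a : ∀ l < 9, k + 1 ≤ l → ∀ a ∉ (ts k).1, ∀ c ∈ (ts k).1,
        sgM (lt l).1 (lt l).2.1 (lt l).2.2 a c = 0 :=
      fun l h1 h2 a h3 c h5 => by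
        have := h4 k hk l h1
        simp only [Bool.or_eq_true, Nat.ble_eq, List.all_eq_true, List.contains_iff_mem,
          decide_eq_true_eq] at this
        exact ((this.resolve_left (by omega) a (List.mem_finRange a)).resolve_left h3) c h5
    have key : ∀ u ∈ M g 9 (k + 1), ∀ a ∉ (ts k).1, ∀ c ∈ (ts k).1, mu u.1 a c = 0 := by
      have hmul : ∀ x y : Ω, (∀ a ∉ (ts k).1, ∀ c ∈ (ts k).1, mu x.1 a c = 0) →
          (∀ a ∉ (ts k).1, ∀ c ∈ (ts k).1, mu y.1 a c = 0) →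
          ∀ a ∉ (ts k).1, ∀ c ∈ (ts k).1, mu (x * y).1 a c = 0 := fun x y hx hy a ha c hc => by
        rw [Subgroup.coe_mul, map_mul, Matrix.mul_apply]
        refine Finset.sum_eq_zero fun i _ => ?_
        by_cases hi : i ∈ (ts k).1
        · rw [hx a ha i hi, zero_mul]
        · rw [hy i hi c hc, mul_zero]
      intro u hu
      induction hu using closure_induction'' with
      | one =>
        intro a ha c hc
        rw [Subgroup.coe_one, map_one, Matrix.one_apply_ne (by rintro rfl; exact ha hc)]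
      | mem x hx => obtain ⟨l, h5, h6, rfl⟩ := hx; rw [mu_g' h6]; exact a l h6 h5
      | inv_mem x hx =>
        obtain ⟨l, h5, h6, rfl⟩ := hx
        have : (g l)⁻¹ = g l * g l := by rw [inv_eq_iff_mul_eq_one, ← hc l h6, pow_three]
        rw [this]
        exact hmul _ _ (by rw [mu_g' h6]; exact a l h6 h5) (by rw [mu_g' h6]; exact a l h6 h5)
      | mul x y _ _ p q => exact hmul _ _ p q
    exact d (mu_g' hk ▸ key _ hm _ b _ c)

/-- the representatives -/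
def reps : List (List ℕ) := [[0], [2], [0, 1], [0, 2], [0, 11], [0, 17], [0, 2, 8], []]

/-- part of the tree -/
def tr0 : T :=
  (.split (.split (.split (.split (.split (.split (.split (.leaf [] 7) (.leaf [1, 19, 1, 2, 20, 2, 1, 19, 1] 0)
  (.leaf [1, 19, 1, 2, 20, 2, 10, 28, 10] 0)) (.inert [1] [8] (.leaf [2, 20, 2, 10, 28, 10] 0)) (.inert [1] [17]
  (.leaf [2, 20, 2, 1, 19, 1] 0))) (.inert [0] [7] (.inert [3] [17] (.leaf [0, 18, 0, 2, 20, 2, 10, 28, 10] 0)))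
  (.inert [0] [16] (.inert [3] [8] (.leaf [2, 20, 2, 9, 27, 9, 10, 28, 10] 0)))) (.split (.inert [2] [16]
  (.inert [4] [17] (.leaf [9, 27, 9, 10, 28, 10] 1))) (.inert [2] [16] (.inert [4] [17] (.leaf [0, 18, 0, 2, 20,
  2, 10, 28, 10] 3))) (.inert [2] [16] (.inert [4] [17] (.leaf [2, 20, 2, 9, 27, 9, 10, 28, 10] 4)))) (.split
  (.inert [2] [7] (.inert [4] [8] (.leaf [0, 18, 0, 10, 28, 10] 1))) (.inert [2] [7] (.inert [4] [8] (.leaf [0,
  18, 0, 2, 20, 2, 10, 28, 10] 4))) (.inert [2] [7] (.inert [4] [8] (.leaf [2, 20, 2, 9, 27, 9, 10, 28, 10]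
  3))))) (.inert [0] [5, 8] (.inert [2] [15] (.split (.inert [5] [8] (.leaf [10, 28, 10] 1)) (.inert [5] [8]
  (.leaf [2, 20, 2, 10, 28, 10] 4)) (.inert [5] [8] (.leaf [2, 20, 2, 1, 19, 1] 3))))) (.inert [0] [14, 8]
  (.inert [2] [6] (.split (.inert [5] [17] (.leaf [1, 19, 1] 1)) (.inert [5] [17] (.leaf [2, 20, 2, 10, 28, 10]
  3)) (.inert [5] [17] (.leaf [2, 20, 2, 1, 19, 1] 4)))))) (.split (.inert [2] [14, 16] (.split (.split (.inert
  [6] [8] (.leaf [1, 19, 1] 0)) (.inert [6] [8] (.leaf [2, 2, 20, 2, 9, 27, 9, 10, 28, 10, 4] 1)) (.inert [6]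
  [8] (.leaf [1, 19, 1] 5))) (.inert [0] [7] (.inert [6] [8] (.leaf [0, 18, 0, 0, 18, 0, 10, 28, 10, 2, 20, 2]
  2))) (.inert [0] [16] (.inert [6] [8] (.leaf [1, 19, 1, 2, 20, 2] 2))))) (.inert [2] [14, 15, 16, 8] (.inert
  [0, 2] [15, 7, 17] (.split (.inert [6] [8] (.leaf [1, 19, 1] 4)) (.inert [6] [8] (.leaf [2, 2, 20, 2, 9, 27,
  9, 10, 28, 10, 4] 6)) (.inert [6] [8] (.leaf [0, 2, 16, 2, 20, 2, 9, 27, 9, 10, 28, 10, 2, 20, 2, 0, 13, 7]
  2))))) (.inert [2] [14, 6, 16, 17] (.inert [0, 11] [15, 7, 17] (.split (.inert [6] [8] (.leaf [1, 19, 1] 3))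
  (.inert [6] [8] (.leaf [1, 19, 1] 6)) (.inert [6] [8] (.leaf [0, 11, 16, 2, 20, 2, 9, 27, 9, 10, 28, 10, 2,
  20, 2, 0, 4, 7] 2)))))) (.split (.inert [2] [5, 7] (.split (.split (.inert [6] [17] (.leaf [10, 28, 10] 0))
  (.inert [6] [17] (.leaf [10, 28, 10] 5)) (.inert [6] [17] (.leaf [11, 2, 20, 2, 9, 27, 9, 10, 28, 10, 13] 1)))
  (.inert [0] [7] (.inert [6] [17] (.leaf [0, 18, 0, 0, 18, 0, 1, 19, 1, 2, 20, 2] 2))) (.inert [0] [16] (.inert
  [6] [17] (.leaf [10, 28, 10, 2, 20, 2] 2))))) (.inert [2] [5, 15, 7, 17] (.inert [0, 11] [6, 16, 17] (.split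
  (.inert [6] [17] (.leaf [10, 28, 10] 3)) (.inert [6] [17] (.leaf [0, 11, 0, 18, 0, 2, 20, 2, 10, 28, 10, 2,
  20, 2, 0, 4, 7] 2)) (.inert [6] [17] (.leaf [10, 28, 10] 6))))) (.inert [2] [5, 6, 7, 8] (.inert [0, 2] [6,
  16, 17] (.split (.inert [6] [17] (.leaf [10, 28, 10] 4)) (.inert [6] [17] (.leaf [0, 2, 0, 18, 0, 2, 20, 2,
  10, 28, 10, 2, 20, 2, 0, 13, 7] 2)) (.inert [6] [17] (.leaf [11, 2, 20, 2, 9, 27, 9, 10, 28, 10, 13] 6)))))))
  (.split (.inert [1] [4, 6] (.inert [3] [5, 7] (.inert [4] [6] (.inert [5] [7] (.split (.leaf [] 1) (.leaf [1,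
  19, 1, 2, 20, 2, 1, 19, 1] 3) (.leaf [1, 19, 1, 2, 20, 2, 10, 28, 10] 4)))))) (.inert [1] [4, 6, 17] (.inert
  [3] [5, 7] (.inert [4] [6, 17] (.inert [5] [7] (.cube [7]))))) (.inert [1] [4, 6, 8] (.inert [3] [5, 7]
  (.inert [4] [6, 8] (.inert [5] [7] (.cube [16])))))) (.split (.inert [1] [13, 6] (.inert [3] [14, 7] (.inert
  [4] [15] (.inert [5] [16] (.split (.leaf [1, 19, 1, 1, 19, 1] 1) (.leaf [1, 19, 1, 2, 20, 2, 1, 19, 1] 4)
  (.leaf [1, 19, 1, 2, 20, 2, 10, 28, 10] 3)))))) (.inert [1] [13, 6, 17] (.inert [3] [14, 7] (.inert [4] [15,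
  8] (.inert [5] [16] (.cube [7]))))) (.inert [1] [13, 6, 8] (.inert [3] [14, 7] (.inert [4] [15, 17] (.inert
  [5] [16] (.cube [16])))))))

/-- part of the tree -/
def tr1 : T :=
  (.split (.inert [0] [3] (.inert [2] [13, 15] (.split (.split (.split (.inert [7] [17] (.leaf [9, 27, 9, 10,
  28, 10] 0)) (.inert [7] [17] (.leaf [2, 20, 2, 10, 28, 10, 2, 20, 2, 9] 2)) (.inert [7] [17] (.leaf [9, 27, 9,
  10, 28, 10, 2, 20, 2] 2))) (.split (.inert [7] [17] (.leaf [2, 2, 20, 2, 10, 28, 10, 4] 1)) (.inert [7] [17]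
  (.leaf [0, 18, 0, 1, 19, 1, 2, 20, 2, 7] 2)) (.inert [7] [17] (.leaf [9, 27, 9, 10, 28, 10, 2, 20, 2, 7] 2)))
  (.split (.inert [7] [17] (.leaf [9, 27, 9, 10, 28, 10] 5)) (.inert [7] [17] (.leaf [0, 18, 0, 1, 19, 1, 2, 20,
  2, 16] 2)) (.inert [7] [17] (.leaf [9, 27, 9, 10, 28, 10, 2, 20, 2, 16] 2)))) (.split (.split (.inert [7] [17]
  (.leaf [9, 27, 9, 10, 28, 10] 3)) (.inert [7] [17] (.leaf [2, 20, 2, 10, 28, 10, 2, 20, 2, 9, 4, 7] 2))
  (.inert [7] [17] (.leaf [2, 20, 2, 1, 19, 1, 2, 20, 2, 9, 4, 7] 2))) (.split (.inert [7] [17] (.leaf [9, 27,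
  9, 10, 28, 10] 6)) (.inert [7] [17] (.leaf [9, 27, 9, 10, 28, 10, 12, 13, 6, 8] 3)) (.inert [7] [17] (.leaf
  [9, 27, 9, 10, 28, 10, 3, 4, 15, 8] 3))) (.split (.inert [7] [17] (.leaf [9, 11, 0, 18, 0, 2, 20, 2, 10, 28,
  10, 2, 20, 2, 0, 4, 16] 2)) (.inert [7] [17] (.leaf [9, 27, 9, 10, 28, 10, 12, 13, 6, 8] 6)) (.inert [7] [17]
  (.leaf [9, 27, 9, 10, 28, 10, 3, 4, 15, 8] 6)))) (.split (.split (.inert [7] [17] (.leaf [9, 27, 9, 10, 28,
  10] 4)) (.inert [7] [17] (.leaf [2, 20, 2, 10, 28, 10, 2, 20, 2, 9, 13, 7] 2)) (.inert [7] [17] (.leaf [2, 20,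
  2, 1, 19, 1, 2, 20, 2, 9, 13, 7] 2))) (.split (.inert [7] [17] (.leaf [2, 2, 20, 2, 10, 28, 10, 4] 6)) (.inert
  [7] [17] (.leaf [9, 27, 9, 10, 28, 10, 12, 4, 6, 8] 4)) (.inert [7] [17] (.leaf [9, 27, 9, 10, 28, 10, 3, 13,
  15, 8] 4))) (.split (.inert [7] [17] (.leaf [9, 2, 0, 18, 0, 2, 20, 2, 10, 28, 10, 2, 20, 2, 0, 13, 16] 2))
  (.inert [7] [17] (.leaf [0, 16, 2, 20, 2, 9, 27, 9, 10, 28, 10, 3, 4, 15, 8] 6)) (.inert [7] [17] (.leaf [9,
  7, 2, 20, 2, 9, 27, 9, 10, 28, 10, 12, 13, 6, 8] 6))))))) (.inert [0] [3, 14, 16] (.inert [2] [13] (.inert [3]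
  [5, 7] (.inert [4] [6] (.cube [6]))))) (.inert [0] [3, 5, 16] (.inert [2] [13, 6] (.inert [3] [14, 7] (.inert
  [4] [15] (.cube [6]))))))

/-- part of the tree -/
def tr2 : T :=
  (.split (.inert [0] [12] (.inert [2] [4, 6] (.split (.split (.split (.inert [7] [8] (.leaf [0, 18, 0, 10, 28,
  10] 0)) (.inert [7] [8] (.leaf [0, 18, 0, 10, 28, 10, 2, 20, 2] 2)) (.inert [7] [8] (.leaf [9, 27, 9, 1, 19,
  1, 2, 20, 2] 2))) (.split (.inert [7] [8] (.leaf [0, 18, 0, 10, 28, 10] 5)) (.inert [7] [8] (.leaf [0, 18, 0,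
  10, 28, 10, 2, 20, 2, 16] 2)) (.inert [7] [8] (.leaf [9, 27, 9, 1, 19, 1, 2, 20, 2, 16] 2))) (.split (.inert
  [7] [8] (.leaf [11, 2, 20, 2, 10, 28, 10, 13] 1)) (.inert [7] [8] (.leaf [0, 18, 0, 10, 28, 10, 2, 20, 2, 7]
  2)) (.inert [7] [8] (.leaf [9, 27, 9, 1, 19, 1, 2, 20, 2, 7] 2)))) (.split (.split (.inert [7] [8] (.leaf [0,
  18, 0, 10, 28, 10] 4)) (.inert [7] [8] (.leaf [0, 18, 0, 0, 18, 0, 2, 20, 2, 1, 19, 1, 2, 20, 2, 9, 13, 7] 2))
  (.inert [7] [8] (.leaf [0, 18, 0, 0, 18, 0, 2, 20, 2, 10, 28, 10, 2, 20, 2, 9, 13, 7] 2))) (.split (.inert [7]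
  [8] (.leaf [9, 2, 16, 2, 20, 2, 9, 27, 9, 10, 28, 10, 2, 20, 2, 13, 16] 2)) (.inert [7] [8] (.leaf [9, 11, 16,
  2, 20, 2, 9, 27, 9, 10, 28, 10, 12, 4, 6, 8] 6)) (.inert [7] [8] (.leaf [0, 2, 7, 2, 20, 2, 9, 27, 9, 10, 28,
  10, 3, 13, 15, 8] 6))) (.split (.inert [7] [8] (.leaf [11, 2, 20, 2, 10, 28, 10, 13] 6)) (.inert [7] [8]
  (.leaf [0, 18, 0, 10, 28, 10, 3, 13, 15] 4)) (.inert [7] [8] (.leaf [2, 2, 20, 2, 10, 28, 10, 9, 3, 4] 4))))
  (.split (.split (.inert [7] [8] (.leaf [0, 18, 0, 10, 28, 10] 3)) (.inert [7] [8] (.leaf [0, 18, 0, 0, 18, 0,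
  2, 20, 2, 1, 19, 1, 2, 20, 2, 9, 4, 7] 2)) (.inert [7] [8] (.leaf [0, 18, 0, 0, 18, 0, 2, 20, 2, 10, 28, 10,
  2, 20, 2, 9, 4, 7] 2))) (.split (.inert [7] [8] (.leaf [9, 11, 16, 2, 20, 2, 9, 27, 9, 10, 28, 10, 2, 20, 2,
  4, 16] 2)) (.inert [7] [8] (.leaf [0, 18, 0, 10, 28, 10, 3, 4, 15] 6)) (.inert [7] [8] (.leaf [0, 18, 0, 10,
  28, 10, 12, 13, 6] 6))) (.split (.inert [7] [8] (.leaf [0, 18, 0, 10, 28, 10] 6)) (.inert [7] [8] (.leaf [0,
  18, 0, 10, 28, 10, 3, 4, 15] 3)) (.inert [7] [8] (.leaf [11, 2, 20, 2, 10, 28, 10, 9, 3, 13] 3))))))) (.inert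
  [0] [12, 5, 7] (.inert [2] [4] (.inert [3] [5, 7] (.inert [4] [6] (.cube [15]))))) (.inert [0] [12, 14, 7]
  (.inert [2] [4, 15] (.inert [3] [14, 7] (.inert [4] [15] (.cube [15]))))))

/-- part of the tree -/
def tr3 : T :=
  (.split (.inert [1] [12] (.split (.inert [4] [14, 17] (.split (.inert [6] [16] (.split (.leaf [] 0) (.leaf [4,
  1, 19, 1, 0, 18, 0, 2, 20, 2, 1, 19, 1, 4] 1) (.leaf [] 5))) (.inert [6] [16] (.inert [3] [17] (.leaf [0, 18,
  0, 0, 18, 0, 2, 20, 2] 2))) (.inert [6] [16] (.inert [3] [8] (.leaf [2, 20, 2] 2))))) (.inert [4] [14] (.inert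
  [2] [15] (.inert [6] [16] (.inert [5] [8] (.cube [8]))))) (.inert [4] [14, 8] (.inert [2] [6] (.inert [6] [16]
  (.inert [5] [17] (.cube [8]))))))) (.inert [1] [12, 4, 5, 6, 7, 17] (.split (.inert [4] [14, 6, 7, 17] (.inert
  [3, 4] [6, 16, 8] (.inert [6] [16] (.split (.leaf [] 3) (.leaf [] 6) (.leaf [12, 13, 17, 1, 19, 1, 0, 18, 0,
  2, 20, 2, 1, 19, 1, 2, 20, 2, 0, 4, 7] 2))))) (.inert [4] [14, 6, 7] (.inert [3, 4] [6, 16, 8] (.inert [6]
  [16] (.cube [7, 8])))) (.inert [4] [14, 6, 7, 8] (.inert [3, 4] [6, 16, 8] (.inert [6] [16] (.cube [16,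
  8])))))) (.inert [1] [12, 13, 14, 6, 7, 17] (.split (.inert [4] [14, 15, 16, 17] (.inert [3, 13] [6, 16, 8]
  (.inert [6] [16] (.split (.leaf [] 4) (.leaf [4, 1, 19, 1, 0, 18, 0, 2, 20, 2, 1, 19, 1, 4] 6) (.leaf [12, 4,
  17, 1, 19, 1, 0, 18, 0, 2, 20, 2, 1, 19, 1, 2, 20, 2, 0, 13, 7] 2))))) (.inert [4] [14, 15, 16] (.inert [3,
  13] [6, 16, 8] (.inert [6] [16] (.cube [16, 8])))) (.inert [4] [14, 15, 16, 8] (.inert [3, 13] [6, 16, 8]
  (.inert [6] [16] (.cube [7, 8])))))))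

/-- part of the tree -/
def tr4 : T :=
  (.split (.inert [1] [12] (.inert [2] [13, 15] (.inert [4] [14, 17] (.split (.inert [6] [16, 17] (.inert [7]
  [17] (.leaf [] 2))) (.inert [6] [16, 17] (.inert [7] [17] (.cube [8]))) (.inert [6] [16, 17] (.inert [7] [17]
  (.cube [17]))))))) (.inert [1] [12, 4, 5, 6, 7, 17] (.inert [2] [13] (.inert [4] [14, 6, 7, 17] (.cube [5, 6,
  16, 8])))) (.inert [1] [12, 13, 14, 6, 7, 17] (.inert [2] [13, 6] (.inert [4] [14, 15, 16, 17] (.cube [14, 6,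
  16, 8])))))

/-- part of the tree -/
def tr5 : T :=
  (.split (.inert [1] [12] (.inert [2] [4, 6] (.inert [4] [14, 17] (.split (.inert [6] [16, 8] (.inert [7] [8]
  (.leaf [0, 18, 0, 0, 18, 0] 2))) (.inert [6] [16, 8] (.inert [7] [8] (.cube [17]))) (.inert [6] [16, 8]
  (.inert [7] [8] (.cube [8]))))))) (.inert [1] [12, 4, 5, 6, 7, 17] (.inert [2] [4] (.inert [4] [14, 6, 7, 17]
  (.cube [14, 15, 7, 8])))) (.inert [1] [12, 13, 14, 6, 7, 17] (.inert [2] [4, 15] (.inert [4] [14, 15, 16, 17]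
  (.cube [5, 15, 7, 8])))))

/-- part of the tree -/
def tr6 : T :=
  (.split (.inert [1] [3] (.split (.inert [4] [5, 8] (.split (.inert [6] [7] (.split (.leaf [1, 19, 1, 1, 19, 1]
  0) (.leaf [1, 19, 1, 1, 19, 1] 5) (.leaf [13, 1, 19, 1, 2, 20, 2, 9, 27, 9, 10, 28, 10, 4] 1))) (.inert [6]
  [7] (.inert [3] [17] (.leaf [0, 18, 0, 0, 18, 0, 1, 19, 1, 1, 19, 1, 2, 20, 2] 2))) (.inert [6] [7] (.inert
  [3] [8] (.leaf [1, 19, 1, 1, 19, 1, 2, 20, 2] 2))))) (.inert [4] [5] (.inert [2] [15] (.inert [6] [7] (.inert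
  [5] [8] (.cube [17]))))) (.inert [4] [5, 17] (.inert [2] [6] (.inert [6] [7] (.inert [5] [17] (.cube
  [17]))))))) (.inert [1] [3, 4, 14, 6, 16, 8] (.split (.inert [4] [5, 6, 16, 8] (.inert [3, 13] [15, 16, 17]
  (.inert [6] [7] (.split (.leaf [1, 19, 1, 1, 19, 1] 4) (.leaf [3, 13, 8, 1, 19, 1, 2, 20, 2, 9, 27, 9, 10, 28,
  10, 2, 20, 2, 0, 13, 7] 2) (.leaf [13, 1, 19, 1, 2, 20, 2, 9, 27, 9, 10, 28, 10, 4] 6))))) (.inert [4] [5, 6,
  16] (.inert [3, 13] [15, 16, 17] (.inert [6] [7] (.cube [16, 17])))) (.inert [4] [5, 6, 16, 17] (.inert [3,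
  13] [15, 16, 17] (.inert [6] [7] (.cube [7, 17])))))) (.inert [1] [3, 13, 5, 6, 16, 8] (.split (.inert [4] [5,
  15, 7, 8] (.inert [3, 4] [15, 16, 17] (.inert [6] [7] (.split (.leaf [1, 19, 1, 1, 19, 1] 3) (.leaf [3, 4, 8,
  1, 19, 1, 2, 20, 2, 9, 27, 9, 10, 28, 10, 2, 20, 2, 0, 4, 7] 2) (.leaf [1, 19, 1, 1, 19, 1] 6))))) (.inert [4]
  [5, 15, 7] (.inert [3, 4] [15, 16, 17] (.inert [6] [7] (.cube [7, 17])))) (.inert [4] [5, 15, 7, 17] (.inert
  [3, 4] [15, 16, 17] (.inert [6] [7] (.cube [16, 17])))))))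

/-- part of the tree -/
def tr7 : T :=
  (.split (.inert [1] [3] (.inert [2] [13, 15] (.inert [4] [5, 8] (.split (.inert [6] [7, 8] (.inert [7] [17]
  (.leaf [1, 19, 1, 1, 19, 1] 2))) (.inert [6] [7, 8] (.inert [7] [17] (.cube [17]))) (.inert [6] [7, 8] (.inert
  [7] [17] (.cube [8]))))))) (.inert [1] [3, 4, 14, 6, 16, 8] (.inert [2] [13] (.inert [4] [5, 6, 16, 8] (.cube
  [14, 6, 7, 17])))) (.inert [1] [3, 13, 5, 6, 16, 8] (.inert [2] [13, 6] (.inert [4] [5, 15, 7, 8] (.cube [5,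
  6, 7, 17])))))

/-- part of the tree -/
def tr8 : T :=
  (.split (.inert [1] [3] (.inert [2] [4, 6] (.inert [4] [5, 8] (.split (.inert [6] [7, 17] (.inert [7] [8]
  (.leaf [0, 18, 0, 0, 18, 0, 1, 19, 1, 1, 19, 1] 2))) (.inert [6] [7, 17] (.inert [7] [8] (.cube [8]))) (.inert
  [6] [7, 17] (.inert [7] [8] (.cube [17]))))))) (.inert [1] [3, 4, 14, 6, 16, 8] (.inert [2] [4] (.inert [4]
  [5, 6, 16, 8] (.cube [5, 15, 16, 17])))) (.inert [1] [3, 13, 5, 6, 16, 8] (.inert [2] [4, 15] (.inert [4] [5,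
  15, 7, 8] (.cube [14, 15, 16, 17])))))

/-- the tree -/
def tree : T := (.split (.split tr0 tr1 tr2) (.split tr3 tr4 tr5) (.split tr6 tr7 tr8))

theorem tree_ok : chk eqW 9 reps tree 0 [] = true := by decide +kernel

theorem good {u : Ω} (hu : u ∈ M g 9 0) : Good g reps u := by
  simpa [ev_nil] using chk_sound pc eqW_sound reps tree 0 [] tree_ok (one_mem _) u hu

end Cfsg.Agent.H38.O7
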