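import Cfsg.Agent.H38.O8a
import Cfsg.Agent.H29.Triality4

/-! Elements of order three of `PΩ⁺(8, 3)`: invariants separating the classes. -/

set_option autoImplicit false
set_option maxRecDepth 100000
set_option linter.style.haveILetI false

namespace Cfsg.Agent.H38.O8

open Matrix QuadraticMap Subgroup Cfsg.Agent.H28 Cfsg.Agent.H29 Cfsg.Agent.H17 Cfsg.Agent.H38.PT

local notation "𝔽" => ZMod 3
local notation "ι" => Fin 4 ⊕ Fin 4
local notation "𝐐" => qPlus 4 (ZMod 3)
local notation "Ω" => Omega (ZMod 3) (qPlus 4 (ZMod 3))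
local notation "PΩ" => POmega (ZMod 3) (qPlus 4 (ZMod 3))
local notation "τ" => triality (ZMod 3)
local notation "𝐌" => Matrix (Fin 8) (Fin 8) (ZMod 3)

/-- the bilinear form -/
def pol (v w : Fin 8 → 𝔽) : 𝔽 := ∑ i, v i * w (i + 4)

theorem pol_eq (v w : Fin 8 → 𝔽) : pol v w = polar 𝐐 (v ∘ e8.symm) (w ∘ e8.symm) := by
  rw [b8_apply, pol, Fin.sum_univ_eight]
  change v 0 * w 4 + v 1 * w 5 + v 2 * w 6 + v 3 * w 7 + v 4 * w 0 + v 5 * w 1 + v 6 * w 2 + v 7 * w 3 =
    v 0 * w 4 + v 4 * w 0 + (v 1 * w 5 + v 5 * w 1) + (v 2 * w 6 + v 6 * w 2) + (v 3 * w 7 + v 7 * w 3)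
  ring

theorem pol_mu (s : O 𝐐) (v w : Fin 8 → 𝔽) : pol (mu s *ᵥ v) (mu s *ᵥ w) = pol v w := by
  rw [pol_eq, pol_eq, mu_mulVec, mu_mulVec, Function.comp_assoc, Function.comp_assoc,
    Equiv.self_comp_symm, Function.comp_id, Function.comp_id, B_rho]

/-- truth values -/
noncomputable def cb (p : Prop) : Bool := @decide p (Classical.propDecidable p)

theorem cb_true {p : Prop} : cb p = true ↔ p := @decide_eq_true_iff p (Classical.propDecidable p)

theorem cb_false {p : Prop} : cb p = false ↔ ¬ p := @decide_eq_false_iff_not p (Classical.propDecidable p)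

/-- values of the quadratic form attached to a matrix -/
noncomputable def jn (A : 𝐌) : Bool × Bool × Bool :=
  (cb (∃ v, pol v (A *ᵥ v) = 1), cb (∃ v, pol v (A *ᵥ v) = 2),
    cb (∃ v, pol v (A *ᵥ v) = 0 ∧ A *ᵥ v ≠ 0))

theorem jn_conj (s : O 𝐐) (A : 𝐌) : jn (mu s * A * mu s⁻¹) = jn A := by
  have h1 : ∀ v, mu s⁻¹ *ᵥ (mu s *ᵥ v) = v := fun v => by
    rw [mulVec_mulVec, ← map_mul, inv_mul_cancel, map_one, one_mulVec]
  have h2 : ∀ v, mu s *ᵥ (mu s⁻¹ *ᵥ v) = v := fun v => by
    rw [mulVec_mulVec, ← map_mul, mul_inv_cancel, map_one, one_mulVec]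
  have h3 : ∀ v, (mu s * A * mu s⁻¹) *ᵥ (mu s *ᵥ v) = mu s *ᵥ (A *ᵥ v) := fun v => by
    rw [← mulVec_mulVec, h1, mulVec_mulVec]
  have hs : Function.Surjective (mu s *ᵥ ·) := fun v => ⟨_, h2 v⟩
  have h0 : ∀ v, mu s *ᵥ v = 0 ↔ v = 0 := fun v =>
    ⟨fun h => by rw [← h1 v, h, mulVec_zero], fun h => by rw [h, mulVec_zero]⟩
  have k : ∀ p : 𝔽 → Prop → Prop, (∃ v, p (pol v ((mu s * A * mu s⁻¹) *ᵥ v))
      ((mu s * A * mu s⁻¹) *ᵥ v ≠ 0)) ↔ ∃ v, p (pol v (A *ᵥ v)) (A *ᵥ v ≠ 0) := fun p => by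
    rw [hs.exists]
    simp only [h3, pol_mu, ne_eq, h0]
  rw [jn, jn, k fun a _ => a = 1, k fun a _ => a = 2, k fun a b => a = 0 ∧ b]

/-- the invariant of a matrix -/
noncomputable def jm (A : 𝐌) : Bool × Bool × Bool := jn ((A - 1) * (A - 1))

theorem jm_conj (s t : O 𝐐) : jm (mu (s * t * s⁻¹)) = jm (mu t) := by
  refine (congrArg jn ?_).trans (jn_conj s ((mu t - 1) * (mu t - 1)))
  have h1 : mu s⁻¹ * mu s = 1 := by rw [← map_mul, inv_mul_cancel, map_one]
  have h2 : mu s * mu s⁻¹ = 1 := by rw [← map_mul, mul_inv_cancel, map_one]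
  have h3 : mu (s * t * s⁻¹) - 1 = mu s * (mu t - 1) * mu s⁻¹ := by
    rw [map_mul, map_mul, mul_sub, sub_mul, mul_one, h2]
  rw [h3]
  calc _ = mu s * (mu t - 1) * (mu s⁻¹ * mu s) * (mu t - 1) * mu s⁻¹ := by simp only [mul_assoc]
    _ = _ := by rw [h1]; simp only [mul_assoc, mul_one]

theorem jm_sq {A : 𝐌} (h : A ^ 3 = 1) : jm (A ^ 2) = jm A := by
  have h3 : (3 : 𝐌) = 0 := by
    rw [← map_ofNat (algebraMap 𝔽 𝐌) 3]
    exact (congrArg _ (by decide : (3 : 𝔽) = 0)).trans (map_zero _)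
  refine congrArg jn ?_
  have : (A ^ 2 - 1) * (A ^ 2 - 1) = (A - 1) * (A - 1) + (A ^ 3 - 1) * A + 3 * (A - A ^ 2) := by
    noncomm_ring
  rw [this, h, h3, sub_self, zero_mul, zero_mul, add_zero, add_zero]

/-- the invariant on the projective group -/
noncomputable def J (x : PΩ) : Bool × Bool × Bool := jm (mu (x.out.1 ^ 4))

theorem J_mk (s : Ω) : J (QuotientGroup.mk s) = jm (mu (s.1 ^ 4)) := by
  obtain ⟨c, hc, e⟩ := mu_of_mk_eq (s := s) (t := (QuotientGroup.mk s : PΩ).out)
    (QuotientGroup.out_eq' _).symm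
  rw [J, map_pow, map_pow, e, smul_pow, show c ^ 4 = (c * c) * (c * c) by ring, hc, one_mul, one_smul]

theorem J_of {s t : Ω} (p : O 𝐐) (h : t.1 = p * s.1 * p⁻¹) :
    J (QuotientGroup.mk t) = J (QuotientGroup.mk s) := by
  rw [J_mk, J_mk, h, conj_pow, jm_conj]

theorem J_conj (c x : PΩ) : J (c * x * c⁻¹) = J x := by
  obtain ⟨c, rfl⟩ := QuotientGroup.mk_surjective c
  obtain ⟨x, rfl⟩ := QuotientGroup.mk_surjective x
  exact J_of (t := c * x * c⁻¹) c.1 rfl

theorem J_aut (p : O 𝐐) (x : PΩ) : J (H29.poAut 𝐐 (oInl 𝐐 p) x) = J x := by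
  obtain ⟨s, rfl⟩ := QuotientGroup.mk_surjective x
  obtain ⟨t, h1, h2⟩ := exists_conj (oInl 𝐐 p) s
  rw [h1]
  refine J_of p (mu_injective (Matrix.ext fun r c => ?_))
  rw [mu_entry, mu_entry, h2, ← Subgroup.coe_inv, ← map_inv, gvec_oInl, gvec_oInl, map_mul, map_mul]
  rfl

theorem J_sq {x : PΩ} (h : x ^ 3 = 1) : J (x ^ 2) = J x := by
  obtain ⟨s, rfl⟩ := QuotientGroup.mk_surjective x
  obtain ⟨c, hc, e⟩ := mu_of_mk_eq (s := 1) (t := s ^ 3) h.symm
  rw [← QuotientGroup.mk_pow, J_mk, J_mk, Subgroup.coe_pow, ← pow_mul, mul_comm, pow_mul, map_pow _ _ 2]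
  refine jm_sq ?_
  rw [← map_pow, ← pow_mul, mul_comm, pow_mul, map_pow, ← Subgroup.coe_pow, e, Subgroup.coe_one,
    map_one, smul_pow, show c ^ 4 = (c * c) * (c * c) by ring, hc, one_mul, one_smul, one_pow]

/-- vectors from numbers -/
def dv (n : ℕ) (i : Fin 8) : 𝔽 := (n / 3 ^ i.1 : ℕ)

/-- certificates for the invariant -/
structure JC where
  b1 : ℕ
  b2 : ℕ
  d1 : 𝔽
  d2 : 𝔽
  d3 : 𝔽
  v1 : ℕ
  v2 : ℕ
  v3 : ℕ
  val : Bool × Bool × Bool

/-- the binary form -/
def JC.q (c : JC) (a b : 𝔽) : 𝔽 := (c.d1 * a + c.d2 * b) * a + (c.d2 * a + c.d3 * b) * b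

/-- the image vector -/
def JC.im (c : JC) (a b : 𝔽) (r : Fin 8) : 𝔽 :=
  (c.d1 * a + c.d2 * b) * dv c.b1 r + (c.d2 * a + c.d3 * b) * dv c.b2 r

/-- the value at a vector -/
def JC.at (c : JC) (n : ℕ) : 𝔽 := c.q (pol (dv n) (dv c.b1)) (pol (dv n) (dv c.b2))

/-- the check -/
def JC.ok (c : JC) (A : 𝐌) : Bool :=
  decide (∀ r k, ∑ i, (A r i - if r = i then 1 else 0) * (A i k - if i = k then 1 else 0) =
    c.im (dv c.b1 (k + 4)) (dv c.b2 (k + 4)) r) &&
  (if c.val.1 then decide (c.at c.v1 = 1) else decide (∀ a b, c.q a b ≠ 1)) &&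
  (if c.val.2.1 then decide (c.at c.v2 = 2) else decide (∀ a b, c.q a b ≠ 2)) &&
  (if c.val.2.2 then decide (c.at c.v3 = 0) &&
      decide (∃ r, c.im (pol (dv c.v3) (dv c.b1)) (pol (dv c.v3) (dv c.b2)) r ≠ 0)
    else decide (∀ a b, c.q a b = 0 → ∀ r, c.im a b r = 0))

theorem JC.sound {c : JC} {A : 𝐌} (h : c.ok A = true) : jm A = c.val := by
  simp only [JC.ok, Bool.and_eq_true, decide_eq_true_eq] at h
  obtain ⟨⟨⟨h0, h1⟩, h2⟩, h3⟩ := h
  have e1 : ∀ v, ((A - 1) * (A - 1)) *ᵥ v = c.im (pol v (dv c.b1)) (pol v (dv c.b2)) := fun v => by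
    funext r
    have : ∀ k, ((A - 1) * (A - 1)) r k = c.im (dv c.b1 (k + 4)) (dv c.b2 (k + 4)) r := fun k => by
      rw [← h0, Matrix.mul_apply]
      simp only [Matrix.sub_apply, Matrix.one_apply]
    simp only [mulVec, dotProduct, this, JC.im, pol, Fin.sum_univ_eight]
    ring
  have e2 : ∀ v a b, pol v (c.im a b) = (c.d1 * a + c.d2 * b) * pol v (dv c.b1) +
      (c.d2 * a + c.d3 * b) * pol v (dv c.b2) := fun v a b => by
    simp only [JC.im, pol, Fin.sum_univ_eight]
    ring
  have e3 : ∀ v, pol v (c.im (pol v (dv c.b1)) (pol v (dv c.b2))) =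
      c.q (pol v (dv c.b1)) (pol v (dv c.b2)) := fun v => e2 _ _ _
  rw [jm, jn]
  simp only [e1, e3]
  refine Prod.ext ?_ (Prod.ext ?_ ?_)
  · cases hv : c.val.1 <;> simp only [hv, if_true, Bool.false_eq_true, if_false, decide_eq_true_eq,
      cb_true, cb_false] at h1 ⊢
    · exact fun ⟨v, e⟩ => h1 _ _ e
    · exact ⟨_, h1⟩
  · cases hv : c.val.2.1 <;> simp only [hv, if_true, Bool.false_eq_true, if_false, decide_eq_true_eq,
      cb_true, cb_false] at h2 ⊢
    · exact fun ⟨v, e⟩ => h2 _ _ e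
    · exact ⟨_, h2⟩
  · cases hv : c.val.2.2 <;> simp only [hv, if_true, Bool.false_eq_true, if_false, decide_eq_true_eq,
      cb_true, cb_false, Bool.and_eq_true] at h3 ⊢
    · exact fun ⟨v, e, e'⟩ => e' (funext (h3 _ _ e))
    · obtain ⟨a, r, b⟩ := h3
      exact ⟨_, a, fun e => b (congrFun e r)⟩

/-- the matrices of the representatives and their images -/
def extra : List (List ℕ) := [[513, 256, 65536, 16777216, 4294967296, 1103806595072, 281474976710656, 72057594037927936], [1,
    256, 72057594037993472, 562949970198528, 4294967296, 1099511627776, 281474976710656,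
    72057594037927936], [1, 256, 65536, 16777216, 4294967552, 1099511627778, 281474976710656,
    72057594037927936], [66049, 131328, 65536, 16777216, 4294967296, 1103806595072, 282574488338432,
    72057594037927936], [1, 131328, 72057594037993472, 565148993454080, 4294967296, 1099511627776,
    282574488338432, 72057594037927936], [1, 131328, 65536, 16777216, 4295098624, 1099511627778,
    282574488338432, 72057594037927936], [513, 256, 33619968, 16777216, 4294967296, 1103806595072,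
    281474976710656, 72339069014638592], [1, 256, 72339069048258560, 562949970198528, 4294967296,
    1099511627776, 281474976710656, 72339069014638592], [1, 256, 33619968, 16777216, 4294967552,
    1099511627778, 281474976710656, 72339069014638592], [513, 256, 144115188075921408, 281474993487872,
    4294967296, 1103806595072, 281474976710656, 72057594037927936], [1, 256, 72057594037993472,
    562949970198528, 4294967808, 1099511627777, 281474976710656, 72057594037927936], [257, 256, 65536,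
    16777216, 4294967552, 1108101562882, 281474976710656, 72057594037927936], [2207613190657,
    4294967552, 65536, 16777216, 4294967296, 1103806595072, 281474976710656, 72057594037927936], [1,
    258, 72057594037993472, 562949970198528, 1103806595072, 1099511627776, 281474976710656,
    72057594037927936], [1, 256, 65536, 16777216, 4294967552, 1099511627778, 281475010265088,
    72057594037993472], [513, 256, 16842752, 16777216, 4294967296, 1103806595072, 281474976710656,
    72620543991349248], [1, 256, 72620544008192000, 562949970198528, 4294967296, 1099511627776,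
    281474976710656, 72620543991349248], [1, 256, 16842752, 16777216, 4294967552, 1099511627778,
    281474976710656, 72620543991349248], [513, 256, 72057594037993472, 562949970198528, 4294967296,
    1103806595072, 281474976710656, 72057594037927936], [1, 256, 72057594037993472, 562949970198528,
    4294967552, 1099511627778, 281474976710656, 72057594037927936], [513, 256, 65536, 16777216,
    4294967552, 1103806595330, 281474976710656, 72057594037927936], [1103806595585, 8589934848, 65536,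
    16777216, 4294967296, 1103806595072, 281474976710656, 72057594037927936], [1, 257,
    72057594037993472, 562949970198528, 2203318222848, 1099511627776, 281474976710656,
    72057594037927936], [1, 256, 65536, 16777216, 4294967552, 1099511627778, 281474993487872,
    72057594038059008], [513, 256, 144678138062897152, 281474993487872, 4294967296, 1103806595072,
    281474976710656, 72339069014638592], [1, 256, 72339069048258560, 562949970198528, 4294967808,
    1099511627777, 281474976710656, 72339069014638592], [257, 256, 33619968, 16777216, 4294967552,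
    1108101562882, 281474976710656, 72339069014638592], [513, 256, 72339069048258560, 562949970198528,
    4294967296, 1103806595072, 281474976710656, 72339069014638592], [1, 256, 72339069048258560,
    562949970198528, 4294967552, 1099511627778, 281474976710656, 72339069014638592], [513, 256,
    33619968, 16777216, 4294967552, 1103806595330, 281474976710656, 72339069014638592], [1103806595585,
    8589934848, 144115188075921408, 281474993487872, 4294967296, 1103806595072, 281474976710656,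
    72057594037927936], [1, 257, 72057594037993472, 562949970198528, 2203318223362, 1099511627777,
    281474976710656, 72057594037927936], [257, 256, 65536, 16777216, 4294967552, 1108101562882,
    281474993487872, 72057594038059008], [2207613190657, 4294967552, 16842752, 16777216, 4294967296,
    1103806595072, 281474976710656, 72620543991349248], [1, 258, 72620544008192000, 562949970198528,
    1103806595072, 1099511627776, 281474976710656, 72620543991349248], [1, 256, 16842752, 16777216,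
    4294967552, 1099511627778, 281475010265088, 72620544008192000], [2207613190657, 4294967552,
    144678138062897152, 281474993487872, 4294967296, 1103806595072, 281474976710656, 72339069014638592],
    [1, 258, 72339069048258560, 562949970198528, 1103806595585, 1099511627777, 281474976710656,
    72339069014638592], [257, 256, 33619968, 16777216, 4294967552, 1108101562882, 281475010265088,
    72339069048258560]]

/-- the certificates -/
def jc (k : ℕ) : JC := ([⟨0, 0, 0, 0, 0, 0, 0, 0, (false, false, false)⟩, ⟨0, 0, 0, 0, 0, 0, 0, 0, (false, false, false)⟩,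
    ⟨0, 0, 0, 0, 0, 0, 0, 0, (false, false, false)⟩, ⟨1, 729, 0, 1, 0, 171, 90, 81, (true, true, true)⟩,
    ⟨54, 6, 0, 2, 0, 2430, 4617, 2187, (true, true, true)⟩, ⟨1458, 162, 0, 2, 0, 10, 19, 9, (true, true,
    true)⟩, ⟨0, 0, 0, 0, 0, 0, 0, 0, (false, false, false)⟩, ⟨18, 0, 2, 0, 0, 0, 729, 0, (false, true,
    false)⟩, ⟨0, 0, 0, 0, 0, 0, 0, 0, (false, false, false)⟩, ⟨0, 0, 0, 0, 0, 0, 0, 0, (false, false,
    false)⟩, ⟨0, 0, 0, 0, 0, 0, 0, 0, (false, false, false)⟩, ⟨243, 0, 1, 0, 0, 3, 0, 0, (true, false,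
    false)⟩, ⟨1, 0, 1, 0, 0, 81, 0, 0, (true, false, false)⟩, ⟨0, 0, 0, 0, 0, 0, 0, 0, (false, false,
    false)⟩, ⟨0, 0, 0, 0, 0, 0, 0, 0, (false, false, false)⟩, ⟨0, 0, 0, 0, 0, 0, 0, 0, (false, false,
    false)⟩, ⟨9, 0, 1, 0, 0, 729, 0, 0, (true, false, false)⟩, ⟨0, 0, 0, 0, 0, 0, 0, 0, (false, false,
    false)⟩, ⟨0, 0, 0, 0, 0, 0, 0, 0, (false, false, false)⟩, ⟨0, 0, 0, 0, 0, 0, 0, 0, (false, false,
    false)⟩, ⟨486, 0, 2, 0, 0, 0, 3, 0, (false, true, false)⟩, ⟨2, 0, 2, 0, 0, 0, 81, 0, (false, true,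
    false)⟩, ⟨0, 0, 0, 0, 0, 0, 0, 0, (false, false, false)⟩, ⟨0, 0, 0, 0, 0, 0, 0, 0, (false, false,
    false)⟩, ⟨9, 0, 1, 0, 0, 729, 0, 0, (true, false, false)⟩, ⟨18, 0, 2, 0, 0, 0, 729, 0, (false, true,
    false)⟩, ⟨243, 0, 1, 0, 0, 3, 0, 0, (true, false, false)⟩, ⟨18, 0, 2, 0, 0, 0, 729, 0, (false, true,
    false)⟩, ⟨18, 0, 2, 0, 0, 0, 729, 0, (false, true, false)⟩, ⟨486, 0, 2, 0, 0, 0, 3, 0, (false, true,
    false)⟩, ⟨2, 0, 2, 0, 0, 0, 81, 0, (false, true, false)⟩, ⟨81, 0, 1, 0, 0, 1, 0, 0, (true, false,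
    false)⟩, ⟨243, 0, 1, 0, 0, 3, 0, 0, (true, false, false)⟩, ⟨1, 0, 1, 0, 0, 81, 0, 0, (true, false,
    false)⟩, ⟨9, 0, 1, 0, 0, 729, 0, 0, (true, false, false)⟩, ⟨4374, 0, 2, 0, 0, 0, 27, 0, (false,
    true, false)⟩, ⟨1, 9, 1, 0, 1, 729, 810, 0, (true, true, false)⟩, ⟨162, 18, 2, 0, 2, 730, 729, 0,
    (true, true, false)⟩, ⟨243, 2187, 1, 0, 1, 27, 30, 0, (true, true, false)⟩] : List JC).getD k ⟨0, 0, 0, 0, 0, 0, 0, 0, (false, false, false)⟩

/-- triality on letters -/
def s2 (l : ℕ) : ℕ := ([15, 1, 2, 35, 6, 5, 46, 21, 43, 32, 40, 36, 3, 13, 14, 47, 18, 17, 34, 9, 31, 44, 28, 24, 39, 25,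
    26, 11, 30, 29, 22, 45, 19, 8, 16, 12, 27, 37, 38, 23, 42, 41, 10, 33, 7, 20, 4, 0] : List ℕ).getD l 0

/-- its square -/
def s3 (l : ℕ) : ℕ := ([47, 1, 2, 12, 46, 5, 4, 44, 33, 19, 42, 27, 35, 13, 14, 0, 34, 17, 16, 32, 45, 7, 30, 39, 23, 25,
    26, 36, 22, 29, 28, 20, 9, 43, 18, 3, 11, 37, 38, 24, 10, 41, 40, 8, 21, 31, 6, 15] : List ℕ).getD l 0

/-- the words -/
def wd (k : ℕ) : List ℕ :=
  if k % 3 = 0 then reps.getD (k / 3) [] else
    if k % 3 = 1 then (reps.getD (k / 3) []).map s2 else (reps.getD (k / 3) []).map s3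

theorem J_wd : ∀ k < 39, J (QuotientGroup.mk (ev g (wd k))) = (jc k).val := by
  have hm : MatsOK E (mats ++ extra) := matsOK_of (by decide) (by decide +kernel)
  have h1 : ∀ k < 39, ((wd k).all (fun l => Nat.blt l 48) && eqW (mats ++ extra) (wd k) [48 + k] &&
      eqW mats (wd k ++ (wd k ++ wd k)) [] && (jc k).ok (lmat E (mats ++ extra) (48 + k))) = true := by
    decide +kernel
  intro k hk
  have h2 := h1 k hk
  simp only [Bool.and_eq_true, List.all_eq_true, Nat.blt_eq] at h2
  obtain ⟨⟨⟨a, b⟩, c⟩, d⟩ := h2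
  have e1 := eqW_sound _ _ c
  rw [ev_append, ev_append, ev_nil, ← pow_three] at e1
  have e2 := eqW_mat hm b
  rw [List.map_singleton, List.prod_singleton, List.map_congr_left (g := lmat E mats) (fun l hl => by
    rw [lmat, lmat, getW_append mats extra (a l hl)]), ← mu_ev] at e2
  rw [J_mk, ← Subgroup.coe_pow, pow_succ, e1, one_mul, e2, JC.sound d]

theorem otri_letter : ∀ l ∈ [0, 1, 2, 3, 11, 14, 15, 23], OTri (g l) (g (s2 l)) (g (s3 l)) := by
  have hg : ∀ l (h : l < 48) (x : ι → 𝔽), rho 𝐐 (g l).1 x =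
      x + polar 𝐐 (Pi.single (e8 (lt l).1) 1) x • (Pi.single (e8 (lt l).2) 1 : ι → 𝔽) -
        polar 𝐐 (Pi.single (e8 (lt l).2) 1) x • (Pi.single (e8 (lt l).1) 1 : ι → 𝔽) := fun l h x => by
    rw [g, dif_pos h, rho_sg8]
  intro l hl x y z
  simp only [List.mem_cons, List.not_mem_nil, or_false] at hl
  rcases hl with rfl | rfl | rfl | rfl | rfl | rfl | rfl | rfl
  · rw [show s2 0 = 15 from rfl, show s3 0 = 47 from rfl, hg _ (by omega), hg _ (by omega),
      hg _ (by omega)]
    simp only [show e8 (lt 0).1 = .inl 0 from rfl,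
      show e8 (lt 0).2 = .inr 1 from rfl,
      show e8 (lt 15).1 = .inl 3 from rfl,
      show e8 (lt 15).2 = .inl 2 from rfl,
      show e8 (lt 47).1 = .inr 1 from rfl,
      show e8 (lt 47).2 = .inr 0 from rfl]
    simp [H29.t3, b8_apply, ost, Pi.single_apply]
    ring
  · rw [show s2 1 = 1 from rfl, show s3 1 = 1 from rfl, hg _ (by omega), hg _ (by omega),
      hg _ (by omega)]
    simp only [show e8 (lt 1).1 = .inl 1 from rfl,
      show e8 (lt 1).2 = .inr 2 from rfl]
    simp [H29.t3, b8_apply, ost, Pi.single_apply]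
    ring
  · rw [show s2 2 = 2 from rfl, show s3 2 = 2 from rfl, hg _ (by omega), hg _ (by omega),
      hg _ (by omega)]
    simp only [show e8 (lt 2).1 = .inl 2 from rfl,
      show e8 (lt 2).2 = .inr 3 from rfl]
    simp [H29.t3, b8_apply, ost, Pi.single_apply]
    ring
  · rw [show s2 3 = 35 from rfl, show s3 3 = 12 from rfl, hg _ (by omega), hg _ (by omega),
      hg _ (by omega)]
    simp only [show e8 (lt 3).1 = .inl 2 from rfl,
      show e8 (lt 3).2 = .inl 3 from rfl,
      show e8 (lt 35).1 = .inr 0 from rfl,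
      show e8 (lt 35).2 = .inr 1 from rfl,
      show e8 (lt 12).1 = .inr 1 from rfl,
      show e8 (lt 12).2 = .inl 0 from rfl]
    simp [H29.t3, b8_apply, ost, Pi.single_apply]
    ring
  · rw [show s2 11 = 36 from rfl, show s3 11 = 27 from rfl, hg _ (by omega), hg _ (by omega),
      hg _ (by omega)]
    simp only [show e8 (lt 11).1 = .inl 0 from rfl,
      show e8 (lt 11).2 = .inl 1 from rfl,
      show e8 (lt 36).1 = .inl 1 from rfl,
      show e8 (lt 36).2 = .inr 0 from rfl,
      show e8 (lt 27).1 = .inr 2 from rfl,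
      show e8 (lt 27).2 = .inr 3 from rfl]
    simp [H29.t3, b8_apply, ost, Pi.single_apply]
    ring
  · rw [show s2 14 = 14 from rfl, show s3 14 = 14 from rfl, hg _ (by omega), hg _ (by omega),
      hg _ (by omega)]
    simp only [show e8 (lt 14).1 = .inr 3 from rfl,
      show e8 (lt 14).2 = .inl 2 from rfl]
    simp [H29.t3, b8_apply, ost, Pi.single_apply]
    ring
  · rw [show s2 15 = 47 from rfl, show s3 15 = 0 from rfl, hg _ (by omega), hg _ (by omega),
      hg _ (by omega)]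
    simp only [show e8 (lt 15).1 = .inl 3 from rfl,
      show e8 (lt 15).2 = .inl 2 from rfl,
      show e8 (lt 47).1 = .inr 1 from rfl,
      show e8 (lt 47).2 = .inr 0 from rfl,
      show e8 (lt 0).1 = .inl 0 from rfl,
      show e8 (lt 0).2 = .inr 1 from rfl]
    simp [H29.t3, b8_apply, ost, Pi.single_apply]
    ring
  · rw [show s2 23 = 24 from rfl, show s3 23 = 39 from rfl, hg _ (by omega), hg _ (by omega),
      hg _ (by omega)]
    simp only [show e8 (lt 23).1 = .inl 1 from rfl,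
      show e8 (lt 23).2 = .inl 0 from rfl,
      show e8 (lt 24).1 = .inr 0 from rfl,
      show e8 (lt 24).2 = .inl 1 from rfl,
      show e8 (lt 39).1 = .inr 3 from rfl,
      show e8 (lt 39).2 = .inr 2 from rfl]
    simp [H29.t3, b8_apply, ost, Pi.single_apply]
    ring

theorem otri_word (w : List ℕ) (h : ∀ l ∈ w, l ∈ [0, 1, 2, 3, 11, 14, 15, 23]) :
    OTri (ev g w) (ev g (w.map s2)) (ev g (w.map s3)) := by
  induction w with
  | nil => exact (omTri 𝔽).one_mem
  | cons a w ih =>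
    rw [List.map_cons, List.map_cons, ev_cons, ev_cons, ev_cons]
    exact (omTri 𝔽).mul_mem (x := (_, _, _)) (y := (_, _, _)) (otri_letter a (h a List.mem_cons_self))
      (ih fun l hl => h l (List.mem_cons_of_mem _ hl))

/-- the full invariant -/
noncomputable def I (x : PΩ) : (Bool × Bool × Bool) × (Bool × Bool × Bool) × (Bool × Bool × Bool) :=
  (J x, J (τ x), J (τ (τ x)))

/-- its values -/
def tab (j : ℕ) : (Bool × Bool × Bool) × (Bool × Bool × Bool) × (Bool × Bool × Bool) :=
  ((jc (3 * j)).val, (jc (3 * j + 1)).val, (jc (3 * j + 2)).val)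

theorem I_y {j : ℕ} (hj : j < 13) : I (y j) = tab j := by
  have h := otri_word (reps.getD j []) ((by decide : ∀ j < 13, ∀ l ∈ reps.getD j [], l ∈ [0, 1, 2, 3, 11, 14, 15, 23]) j hj)
  have e0 : wd (3 * j) = reps.getD j [] := by
    rw [wd, if_pos (by omega), show 3 * j / 3 = j by omega]
  have e1 : wd (3 * j + 1) = (reps.getD j []).map s2 := by
    rw [wd, if_neg (by omega), if_pos (by omega), show (3 * j + 1) / 3 = j by omega]
  have e2 : wd (3 * j + 2) = (reps.getD j []).map s3 := by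
    rw [wd, if_neg (by omega), if_neg (by omega), show (3 * j + 2) / 3 = j by omega]
  rw [I, y, triality_mk h, triality_mk h.cyc, tab, ← J_wd _ (by omega), ← J_wd _ (by omega),
    ← J_wd _ (by omega), e0, e1, e2]

theorem orderOf_y {j : ℕ} (hj : j < 13) : orderOf (y j) = 3 := by
  have h1 : ∀ j < 13, eqW mats (reps.getD j [] ++ (reps.getD j [] ++ reps.getD j [])) [] = true := by
    decide +kernel
  have h2 : ∀ j < 13, ((reps.getD j []).map (lmat E mats)).prod ≠ 1 := by decide +kernel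
  have e1 := eqW_sound _ _ (h1 j hj)
  rw [ev_append, ev_append, ev_nil, ← pow_three] at e1
  refine orderOf_eq_prime (by rw [y, ← QuotientGroup.mk_pow, e1]; rfl) fun h => h2 j hj ?_
  rw [← mu_ev, eq_one_of_mk (k := 1) e1 h, Subgroup.coe_one, map_one]

theorem I_conj (c x : PΩ) : I (c * x * c⁻¹) = I x := by
  simp only [I, map_mul, map_inv, J_conj]

theorem I_sq {x : PΩ} (h : x ^ 3 = 1) : I (x ^ 2) = I x := by
  simp only [I, map_pow]
  rw [J_sq h, J_sq (by rw [← map_pow, h, map_one]), J_sq (by rw [← map_pow, ← map_pow, h, map_one, map_one])]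

theorem I_tau (x : PΩ) : I (τ x) = ((I x).2.1, (I x).2.2, (I x).1) := by
  have : τ (τ (τ x)) = x := DFunLike.congr_fun (triality_cube (F := 𝔽)) x
  simp only [I, this]

theorem I_refl (x : PΩ) :
    I (H29.poAut 𝐐 (oInl 𝐐 (refl 𝐐 (ou 𝔽))) x) = ((I x).1, (I x).2.2, (I x).2.1) := by
  have h1 : ∀ x, τ (H29.poAut 𝐐 (oInl 𝐐 (refl 𝐐 (ou 𝔽))) x) = H29.poAut 𝐐 (oInl 𝐐 (refl 𝐐 (ou 𝔽))) (τ (τ x)) :=
    fun x => DFunLike.congr_fun (triality_refl (F := 𝔽)) x
  have h2 : τ (τ (τ (τ x))) = τ x := DFunLike.congr_fun (triality_cube (F := 𝔽)) (τ x)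
  simp only [I, h1, J_aut, h2]

theorem I_of_zpowers {a b : PΩ} (ha : orderOf a = 3) (h : zpowers a = zpowers b) : I a = I b := by
  have hb : orderOf b = 3 := by rw [← Nat.card_zpowers, ← h, Nat.card_zpowers, ha]
  obtain ⟨k, rfl⟩ := mem_powers_iff_mem_zpowers.2 (h ▸ mem_zpowers b : b ∈ zpowers a)
  have h3 : a ^ 3 = 1 := orderOf_dvd_iff_pow_eq_one.1 ha.dvd
  change I a = I (a ^ k)
  change orderOf (a ^ k) = 3 at hb
  rw [pow_eq_pow_mod k h3] at hb ⊢
  have : k % 3 = 0 ∨ k % 3 = 1 ∨ k % 3 = 2 := by omega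
  rcases this with e | e | e <;> rw [e] at hb ⊢
  · rw [pow_zero, orderOf_one] at hb; omega
  · rw [pow_one]
  · rw [I_sq h3]

end Cfsg.Agent.H38.O8
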