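import Cfsg.Agent.H38.O7a
import Cfsg.Agent.H38.O8b
import Cfsg.Agent.S0292

/-! Elements of order three of `Ω(7, 3)`: representatives of the conjugacy classes, and the
embedding in `PΩ⁺(8, 3)`. -/

set_option autoImplicit false
set_option maxRecDepth 100000
set_option linter.style.haveILetI false

namespace Cfsg.Agent.H38.O7

open Matrix QuadraticMap Subgroup Cfsg.Agent.H28 Cfsg.Agent.H29 Cfsg.Agent.H17 Cfsg.Agent.H38.PT

local notation "𝔽" => ZMod 3
local notation "ι" => Unit ⊕ (Fin 3 ⊕ Fin 3)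
local notation "𝐐" => qOdd 3 (ZMod 3)
local notation "Ω" => Omega (ZMod 3) (qOdd 3 (ZMod 3))
local notation "PΩ" => POmega (ZMod 3) (qOdd 3 (ZMod 3))

theorem card_K : Nat.card PΩ = 4585351680 := by
  have := S0292.result (F := ZMod 3) (q := 3) rfl (by decide) 3 le_rfl
  norm_num [Finset.prod_range_succ] at this
  change Nat.card (POmega (ZMod 3) (quadFormOdd 3 (ZMod 3))) = _
  omega

theorem center_eq : center Ω = ⊥ := (eq_bot_iff_forall _).2 fun z hz => by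
  obtain ⟨c, hc⟩ := om_center_scalar (qOdd_nondeg 3 (by decide)) (by simp) z hz
  have e : mu z.1 = c • 1 := Matrix.ext fun r k => by
    have := congrFun (congrFun hc (e7 r)) (e7 k)
    simp only [Matrix.smul_apply, Matrix.one_apply, EmbeddingLike.apply_eq_iff_eq] at this ⊢
    exact this
  have h : z.1 ∈ (detMonoidHom.comp mu).toHomUnits.ker :=
    Abelianization.commutator_subset_ker _ z.2
  have h1 : (mu z.1).det = 1 := by
    have := congrArg Units.val (MonoidHom.mem_ker.1 h)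
    rwa [MonoidHom.coe_toHomUnits, Units.val_one, MonoidHom.comp_apply, coe_detMonoidHom] at this
  rw [e, det_smul, det_one, mul_one, Fintype.card_fin] at h1
  rw [(by decide : ∀ c : 𝔽, c ^ 7 = 1 → c = 1) c h1, one_smul] at e
  exact Subtype.ext (mu_injective (e.trans (map_one mu).symm))

theorem mk_injective : Function.Injective (QuotientGroup.mk' (center Ω)) :=
  (injective_iff_map_eq_one _).2 fun u hu => by
    have := (QuotientGroup.eq_one_iff u).1 hu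
    rwa [center_eq, mem_bot] at this

/-- the representatives in the projective group -/
noncomputable def y (j : ℕ) : PΩ := QuotientGroup.mk (ev g (reps.getD j []))

theorem exists_conj_rep {x : PΩ} (hx : orderOf x = 3) : ∃ j < 7, IsConj x (y j) := by
  haveI : Fact (Nat.Prime 3) := ⟨Nat.prime_three⟩
  have hU : Nat.card (M g 9 0) = 3 ^ 9 := pc.card_M 9 0 rfl
  let π := QuotientGroup.mk' (center Ω)
  have hinj : Function.Injective (π.comp (M g 9 0).subtype) :=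
    mk_injective.comp Subtype.val_injective
  have hc : Nat.card (π.comp (M g 9 0).subtype).range = 3 ^ 9 := by
    rw [← Nat.card_congr (MonoidHom.ofInjective hinj).toEquiv, hU]
  have hi : ¬ 3 ∣ (π.comp (M g 9 0).subtype).range.index := by
    have := (π.comp (M g 9 0).subtype).range.card_mul_index
    rw [hc, card_K] at this
    omega
  obtain ⟨P, hP⟩ := (IsPGroup.of_card (p := 3) (G := zpowers x) (n := 1)
    (by rw [Nat.card_zpowers, hx, pow_one])).exists_le_sylow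
  obtain ⟨c, hc'⟩ := MulAction.exists_smul_eq PΩ P ((IsPGroup.of_card hc).toSylow hi)
  have h1 : c * x * c⁻¹ ∈ (c • P : Sylow 3 PΩ) := ⟨x, hP (mem_zpowers x), rfl⟩
  rw [hc'] at h1
  obtain ⟨u, hu⟩ := h1
  have hu' : (QuotientGroup.mk u.1 : PΩ) = c * x * c⁻¹ := hu
  have h3 : u.1 ^ 3 = 1 := mk_injective (by
    rw [map_pow, map_one, QuotientGroup.mk'_apply, hu', conj_pow, orderOf_dvd_iff_pow_eq_one.1 hx.dvd]
    simp)
  obtain ⟨j, hj, h4⟩ := good u.2 h3
  have h5 : IsConj x (y j) := (isConj_iff.2 ⟨c, hu'.symm⟩).trans (π.map_isConj h4)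
  refine ⟨j, ?_, h5⟩
  by_contra h6
  obtain rfl : j = 7 := by
    have : reps.length = 8 := rfl
    omega
  have h7 : y 7 = 1 := rfl
  rw [h7, isConj_one_left] at h5
  rw [h5, orderOf_one] at hx
  omega

/-- the inclusion -/
def mB : Matrix (Fin 8) (Fin 7) 𝔽 := !![1, 0, 0, 0, 0, 0, 0; 0, 1, 0, 0, 0, 0, 0; 0, 0, 1, 0, 0, 0, 0;
  0, 0, 0, 0, 0, 0, 1; 0, 0, 0, 1, 0, 0, 0; 0, 0, 0, 0, 1, 0, 0; 0, 0, 0, 0, 0, 1, 0; 0, 0, 0, 0, 0, 0, 1]

/-- the projection -/
def mA : Matrix (Fin 7) (Fin 8) 𝔽 := !![1, 0, 0, 0, 0, 0, 0, 0; 0, 1, 0, 0, 0, 0, 0, 0;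
  0, 0, 1, 0, 0, 0, 0, 0; 0, 0, 0, 0, 1, 0, 0, 0; 0, 0, 0, 0, 0, 1, 0, 0; 0, 0, 0, 0, 0, 0, 1, 0;
  0, 0, 0, 2, 0, 0, 0, 2]

/-- the extension of a matrix -/
def ex (X : Matrix (Fin 7) (Fin 7) 𝔽) : Matrix (Fin 8) (Fin 8) 𝔽 := mB * X * mA + (1 - mB * mA)

theorem mAB : mA * mB = 1 := by decide +kernel

theorem ex_mul (X Y : Matrix (Fin 7) (Fin 7) 𝔽) : ex (X * Y) = ex X * ex Y := by
  have h : ∀ Z : Matrix (Fin 7) (Fin 8) 𝔽, mA * (mB * Z) = Z := fun Z => by
    rw [← Matrix.mul_assoc, mAB, Matrix.one_mul]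
  simp only [ex, add_mul, mul_add, sub_mul, mul_sub, Matrix.mul_assoc, h, one_mul, mul_one]
  abel

theorem ex_one : ex 1 = 1 := by simp [ex]

theorem q_ex (s : O 𝐐) (v : Fin 4 ⊕ Fin 4 → 𝔽) :
    qPlus 4 𝔽 ((ex (mu s)).submatrix O8.e8.symm O8.e8.symm *ᵥ v) = qPlus 4 𝔽 v := by
  have h1 : ∀ (w : Fin 7 → 𝔽) (v : Fin 8 → 𝔽), qPlus 4 𝔽 ((mB *ᵥ w + (v - mB *ᵥ (mA *ᵥ v))) ∘ O8.e8.symm) =
      𝐐 (w ∘ e7.symm) - 𝐐 ((mA *ᵥ v) ∘ e7.symm) + qPlus 4 𝔽 (v ∘ O8.e8.symm) := fun w v => by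
    have k1 : ∀ v : Fin 8 → 𝔽, qPlus 4 𝔽 (v ∘ O8.e8.symm) =
        v 0 * v 4 + v 1 * v 5 + v 2 * v 6 + v 3 * v 7 := fun v => by
      rw [coe_qPlus, quadFormPlus, Fin.sum_univ_four]; rfl
    have k2 : ∀ v : Fin 7 → 𝔽, 𝐐 (v ∘ e7.symm) = v 6 ^ 2 + (v 0 * v 3 + v 1 * v 4 + v 2 * v 5) :=
      fun v => by rw [coe_qOdd, quadFormOdd, Fin.sum_univ_three]; rfl
    simp only [k1, k2]
    simp [mA, mB, mulVec, dotProduct, Fin.sum_univ_succ]
    have h3 : (3 : 𝔽) = 0 := by decide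
    linear_combination (2 * (v 3 + v 7) ^ 2 - w 6 * (v 3 + v 7)) * h3
  have h2 := h1 (mu s *ᵥ (mA *ᵥ (v ∘ O8.e8))) (v ∘ O8.e8)
  rw [submatrix_mulVec_equiv, Equiv.symm_symm, ex, add_mulVec, sub_mulVec, one_mulVec, ← mulVec_mulVec,
    ← mulVec_mulVec, ← mulVec_mulVec, h2, mu_mulVec]
  simp only [Function.comp_assoc, Equiv.self_comp_symm, Function.comp_id, Q_rho, sub_self, zero_add]

/-- the embedding of the isometry groups -/
def emb : O 𝐐 →* O (qPlus 4 𝔽) := MonoidHom.mk' (fun s =>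
  mkO _ ((ex (mu s)).submatrix O8.e8.symm O8.e8.symm) ((ex (mu s⁻¹)).submatrix O8.e8.symm O8.e8.symm)
    (by rw [submatrix_mul_equiv, ← ex_mul, ← map_mul, mul_inv_cancel, map_one, ex_one,
      submatrix_one_equiv]) (q_ex s))
  fun s t => O_ext_mat (by rw [mat_mul, mat_mkO, mat_mkO, mat_mkO, submatrix_mul_equiv, map_mul, ex_mul])

theorem mu_emb (s : O 𝐐) : O8.mu (emb s) = ex (mu s) := by
  ext r c
  change ex (mu s) (O8.e8.symm (O8.e8 r)) (O8.e8.symm (O8.e8 c)) = _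
  simp only [Equiv.symm_apply_apply]

/-- the embedding of the commutator subgroups -/
def embO : Ω →* Omega 𝔽 (qPlus 4 𝔽) :=
  (emb.comp (Omega 𝔽 𝐐).subtype).codRestrict _ fun s => by
    have : (commutator (O 𝐐)).map emb ≤ commutator (O (qPlus 4 𝔽)) := by
      rw [commutator_def, map_commutator]; exact commutator_mono le_top le_top
    exact this ⟨s.1, s.2, rfl⟩

/-- the embedding of the projective groups -/
noncomputable def f : PΩ →* POmega 𝔽 (qPlus 4 𝔽) :=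
  QuotientGroup.lift _ ((QuotientGroup.mk' _).comp embO) (by rw [center_eq]; exact bot_le)

/-- the images of the representatives -/
def im (j : ℕ) : List ℕ × List ℕ × ℕ := ([([0], [], 0), ([2, 3], [1, 25, 1, 0, 24, 0, 2, 26, 2, 1, 25, 1], 4), ([0, 1], [], 1), ([0, 2, 3],
    [], 8), ([0, 14, 15], [1, 25, 1, 12, 36, 12, 14, 38, 14, 13, 37, 13], 11), ([0, 23], [], 7), ([0, 2,
    3, 11], [], 12)] : List (List ℕ × List ℕ × ℕ)).getD j ([], [], 0)

theorem f_y {j : ℕ} (hj : j < 7) : IsConj (f (y j)) (O8.y (im j).2.2) := by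
  have h1 : ∀ j < 7, ex ((reps.getD j []).map (lmat E mats)).prod =
      ((im j).1.map (lmat O8.E O8.mats)).prod := by decide +kernel
  have h2 : ∀ j < 7, O8.eqW O8.mats ((im j).1 ++ (im j).2.1)
      ((im j).2.1 ++ O8.reps.getD (im j).2.2 []) = true := by decide +kernel
  have h3 : embO (ev g (reps.getD j [])) = ev O8.g (im j).1 := Subtype.ext (O8.mu_injective (by
    rw [O8.mu_ev, ← h1 j hj, ← mu_ev, ← mu_emb]; rfl))
  have h4 := O8.eqW_sound _ _ (h2 j hj)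
  rw [ev_append, ev_append] at h4
  have h5 : f (y j) = QuotientGroup.mk' _ (ev O8.g (im j).1) := by rw [← h3]; rfl
  rw [h5]
  exact (QuotientGroup.mk' _).map_isConj (isConj_iff.2 ⟨(ev O8.g (im j).2.1)⁻¹, by
    rw [inv_inv, mul_assoc, h4, inv_mul_cancel_left]⟩)

theorem y_cube {j : ℕ} (hj : j < 7) : y j ^ 3 = 1 := by
  have h1 : ∀ j < 7, eqW (reps.getD j [] ++ (reps.getD j [] ++ reps.getD j [])) [] = true := by
    decide +kernel
  have e1 := eqW_sound _ _ (h1 j hj)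
  rw [ev_append, ev_append, ev_nil, ← pow_three] at e1
  rw [y, ← QuotientGroup.mk_pow, e1]; rfl

end Cfsg.Agent.H38.O7
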