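import Cfsg.Agent.H38.HasSt
import Cfsg.Agent.H38.ClA
import Cfsg.Agent.S0250

/-! The Steinberg character in the degenerate case `PΩ⁺₄(2)` (order 18). -/

set_option autoImplicit false

namespace Cfsg.Agent.H38

open Matrix
open scoped commutatorElement

section
variable {p : ℕ} [hp : Fact p.Prime] {G Q : Type*} [Group G] [Group Q]

theorem StData.hasSt [Fintype G] {ι : Type} [Fintype ι] [DecidableEq ι] (S : StData p G ι) : HasSt p G :=
  H33.exists_st_quot S (MonoidHom.id G) Function.surjective_id (by simp) (by simp) (by simpa using hp.out.one_lt.ne')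

theorem HasSt.quot_center [Finite G] (h : HasSt p Q) (f : G →* Q) (hf : Function.Surjective f)
    (hk : ¬ p ∣ Nat.card f.ker) (hZ : Subgroup.center Q = ⊥) : HasSt p (G ⧸ Subgroup.center G) := by
  have hle : Subgroup.center G ≤ f.ker := fun z hz => by
    rw [MonoidHom.mem_ker, ← Subgroup.mem_bot, ← hZ, Subgroup.mem_center_iff]
    intro q
    obtain ⟨g, rfl⟩ := hf q
    rw [← map_mul, ← map_mul, Subgroup.mem_center_iff.1 hz]
  refine h.comap (QuotientGroup.lift _ f hle) (fun q => ?_) fun h => hk (h.trans ?_)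
  · obtain ⟨g, rfl⟩ := hf q
    exact ⟨g, rfl⟩
  · rw [QuotientGroup.ker_lift]
    exact Subgroup.card_map_dvd _ _

theorem hasSt_perm_three {α : Type} [Fintype α] (h : Fintype.card α = 3) : HasSt 2 (Equiv.Perm α) := by
  classical
  obtain ⟨e⟩ := S0250.result (F := ZMod 2) (ZMod.card 2)
  have := Fintype.ofFinite (SpecialLinearGroup (Fin (1 + 1)) (ZMod 2))
  obtain ⟨S, -⟩ := H33.rg_stData 2 (ClA.faithful (n := 1) (F := ZMod 2)) ClA.grp_eq_top
  exact (S.hasSt.of_equiv e.symm).of_equiv (Fintype.equivFinOfCardEq h).permCongrHom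

end

namespace OmFour

/-- The quadratic form. -/
abbrev Q : (Fin 2 ⊕ Fin 2 → ZMod 2) → ZMod 2 := quadFormPlus 2 (ZMod 2)

/-- The full orthogonal group. -/
abbrev K := isometryGroup (ZMod 2) Q

/-- The six non-singular vectors. -/
def nv : Fin 6 → Fin 2 ⊕ Fin 2 → ZMod 2 :=
  ![Sum.elim ![1, 0] ![1, 0], Sum.elim ![1, 1] ![0, 1], Sum.elim ![0, 1] ![1, 1],
    Sum.elim ![0, 1] ![0, 1], Sum.elim ![1, 1] ![1, 0], Sum.elim ![1, 0] ![1, 1]]

/-- The matrix of an element of `K`. -/
def mat (g : K) : Matrix (Fin 2 ⊕ Fin 2) (Fin 2 ⊕ Fin 2) (ZMod 2) := (g : GL (Fin 2 ⊕ Fin 2) (ZMod 2))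

theorem mat_mul (g h : K) : mat (g * h) = mat g * mat h := rfl
theorem mat_one : mat 1 = 1 := rfl
theorem Q_mat (g : K) (v) : Q (mat g *ᵥ v) = Q v := g.2 v v

theorem nv_inj : Function.Injective nv := by decide

theorem exists_nv : ∀ v, Q v = 1 → ∃ i, nv i = v := by
  simp only [Q, quadFormPlus, Fin.sum_univ_two]; decide

theorem Q_nv : ∀ i, Q (nv i) = 1 := by
  simp only [Q, quadFormPlus, Fin.sum_univ_two]; decide

/-- The action on the non-singular vectors. -/
noncomputable def act (g : K) (i : Fin 6) : Fin 6 := (exists_nv (mat g *ᵥ nv i) (by rw [Q_mat, Q_nv])).choose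

theorem nv_act (g : K) (i : Fin 6) : nv (act g i) = mat g *ᵥ nv i :=
  (exists_nv (mat g *ᵥ nv i) (by rw [Q_mat, Q_nv])).choose_spec

theorem act_one (i) : act 1 i = i := nv_inj (by rw [nv_act, mat_one, one_mulVec])

theorem act_mul (g h : K) (i) : act (g * h) i = act g (act h i) :=
  nv_inj (by rw [nv_act, nv_act, nv_act, mat_mul, mulVec_mulVec])

/-- The permutation representation on the non-singular vectors. -/
noncomputable def π : K →* Equiv.Perm (Fin 6) where
  toFun g := ⟨act g, act g⁻¹, fun i => by rw [← act_mul, inv_mul_cancel, act_one],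
    fun i => by rw [← act_mul, mul_inv_cancel, act_one]⟩
  map_one' := Equiv.ext act_one
  map_mul' g h := Equiv.ext (act_mul g h)

theorem π_apply (g : K) (i) : π g i = act g i := rfl

theorem eq_one_of_π {g : K} (h : π g = 1) : g = 1 := by
  have h1 : ∀ i, mat g *ᵥ nv i = nv i := fun i => by rw [← nv_act, ← π_apply, h]; rfl
  have h2 : ∀ v, ∃ c : Fin 4 → ZMod 2, v = c 0 • nv 0 + c 1 • nv 1 + c 2 • nv 3 + c 3 • nv 4 := by decide
  refine Subtype.ext (Units.ext (Matrix.ext_of_mulVec_single fun i => ?_))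
  obtain ⟨c, hc⟩ := h2 (Pi.single i 1)
  change mat g *ᵥ _ = mat 1 *ᵥ _
  rw [hc]
  simp only [mulVec_add, mulVec_smul, h1, mat_one, one_mulVec]

/-- The block of a vector. -/
def b : Fin 6 → ZMod 2 := ![0, 0, 0, 1, 1, 1]

theorem b_act (g : K) (i) : b (act g i) = b i + b (act g 0) := by
  have h : ∀ i j, b i = b j + 1 + Q (nv i + nv j) + if i = j then 1 else 0 := by
    simp only [Q, quadFormPlus, Fin.sum_univ_two]; decide
  rw [h (act g i) (act g 0), h i 0, nv_act, nv_act, ← mulVec_add, Q_mat]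
  simp only [← π_apply, EmbeddingLike.apply_eq_iff_eq, show b 0 = 0 from rfl]
  ring

theorem b_act_omega {g : K} (hg : g ∈ commutator K) (i) : b (act g i) = b i := by
  let ε : K →* Multiplicative (ZMod 2) := MonoidHom.mk' (fun g => Multiplicative.ofAdd (b (act g 0))) fun g h => by
    rw [act_mul, b_act, ← ofAdd_add, add_comm]
  have : ε g = 1 := Abelianization.commutator_subset_ker ε hg
  rw [b_act, show b (act g 0) = 0 from this, add_zero]

/-- The action of `Ω` on the first block. -/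
noncomputable def ψ : commutator K →* Equiv.Perm {i // b i = 0} :=
  MonoidHom.mk' (fun g => (π g).subtypePerm fun i => by rw [π_apply, b_act_omega g.2]) fun g h => by
    ext i; exact congrArg Fin.val (act_mul _ _ _)

theorem ψ_apply (g : commutator K) (i) : (ψ g i : Fin 6) = act g i := rfl

theorem not_dvd_ker : ¬ 2 ∣ Nat.card ψ.ker := fun h => by
  obtain ⟨⟨x, hx⟩, ho⟩ := exists_prime_orderOf_dvd_card' 2 h
  have key : ∀ σ : Equiv.Perm (Fin 6), σ 0 = 0 → σ 1 = 1 → σ 2 = 2 → σ * σ = 1 → σ.sign = 1 → σ = 1 := by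
    decide +kernel
  have h1 : ∀ i (hi : b i = 0), π x i = i := fun i hi => by
    rw [π_apply, ← ψ_apply x ⟨i, hi⟩, show ψ x = 1 from hx]; rfl
  have h2 : x.1 * x.1 = 1 := by
    have := pow_orderOf_eq_one (⟨x, hx⟩ : ψ.ker)
    rw [ho, sq] at this
    exact congrArg (fun y : ψ.ker => y.1.1) this
  have h3 := eq_one_of_π (key _ (h1 0 rfl) (h1 1 rfl) (h1 2 rfl) (by rw [← map_mul, h2, map_one])
    (by simpa using Abelianization.commutator_subset_ker (Equiv.Perm.sign.comp π) x.2))
  rw [show (⟨x, hx⟩ : ψ.ker) = 1 from Subtype.ext (Subtype.ext h3), orderOf_one] at ho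
  omega

/-- An involution in `K`. -/
def inv (M : Matrix (Fin 2 ⊕ Fin 2) (Fin 2 ⊕ Fin 2) (ZMod 2)) (h1 : M * M = 1) (h2 : ∀ v, Q (M *ᵥ v) = Q v) : K :=
  ⟨⟨M, M, h1, h1⟩, fun u _ => h2 u⟩

/-- The reflection in a non-singular vector. -/
def rf (i : Fin 6) : K := inv (1 + vecMulVec (nv i) (nv i ∘ Sum.swap)) (by revert i; decide +kernel) (by
  simp only [Q, quadFormPlus, Fin.sum_univ_two]; revert i; decide +kernel)

/-- The exchange of the two blocks. -/
def sw : K := inv (of fun i j => if i = j.map (Equiv.swap 0 1) (Equiv.swap 0 1) then 1 else 0) (by decide +kernel) (by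
  simp only [Q, quadFormPlus, Fin.sum_univ_two]; decide +kernel)

theorem dvd_card_range (q : ℕ) [Fact q.Prime] (g h : K) (h1 : mat (⁅g, h⁆ ^ q) = 1)
    (h2 : mat ⁅g, h⁆ *ᵥ nv 1 ≠ nv 1) : q ∣ Nat.card ψ.range := by
  let x : commutator K := ⟨⁅g, h⁆, Subgroup.commutator_mem_commutator trivial trivial⟩
  have : orderOf (ψ x) = q := orderOf_eq_prime (by
    rw [← map_pow, show x ^ q = 1 from Subtype.ext (Subtype.ext (Units.ext h1)), map_one]) fun h => h2 (by
      rw [← nv_act, ← ψ_apply x ⟨1, rfl⟩, h]; rfl)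
  exact this ▸ Subgroup.orderOf_dvd_natCard _ ⟨x, rfl⟩

theorem ψ_surj : Function.Surjective ψ := by
  have h2 := dvd_card_range 2 (rf 0) sw (by decide +kernel) (by decide +kernel)
  have h3 := dvd_card_range 3 (rf 0) (rf 1) (by decide +kernel) (by decide +kernel)
  rw [← MonoidHom.range_eq_top, ← Subgroup.card_eq_iff_eq_top]
  have h6 : Nat.card (Equiv.Perm {i // b i = 0}) = 6 := by
    rw [Nat.card_eq_fintype_card, Fintype.card_perm]; decide
  exact Nat.dvd_antisymm (Subgroup.card_subgroup_dvd_card _)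
    (by rw [h6]; exact Nat.Coprime.mul_dvd_of_dvd_of_dvd (by norm_num : Nat.Coprime 2 3) h2 h3)

theorem hasSt : HasSt 2 (POmega (ZMod 2) Q) :=
  (hasSt_perm_three (by decide)).quot_center ψ ψ_surj not_dvd_ker (by
    rw [eq_bot_iff]
    intro z hz
    rw [Subgroup.mem_center_iff] at hz
    rw [Subgroup.mem_bot]
    revert z
    decide +kernel)

end OmFour

end Cfsg.Agent.H38
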