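import Mathlib.GroupTheory.Index
import Mathlib.GroupTheory.OrderOfElement
import Mathlib.Tactic.Group
import Mathlib.Tactic.IntervalCases

/-! Conjugacy classes of elements of order three of a finite group meeting a `3`-subgroup with a
polycyclic central series: certificates (orbit trees along the series). -/

set_option autoImplicit false

namespace Cfsg.Agent.H38.PT

open Subgroup

variable {Γ : Type*} [Group Γ]

/-- the value of a word -/
def ev (g : ℕ → Γ) (w : List ℕ) : Γ := (w.map g).prod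

theorem ev_append (g : ℕ → Γ) (a b : List ℕ) : ev g (a ++ b) = ev g a * ev g b := by simp [ev]

theorem ev_cons (g : ℕ → Γ) (a : ℕ) (b : List ℕ) : ev g (a :: b) = g a * ev g b := by simp [ev]

theorem ev_nil (g : ℕ → Γ) : ev g [] = 1 := rfl

theorem ev_single (g : ℕ → Γ) (a : ℕ) : ev g [a] = g a := by simp [ev]

/-- the terms of the series -/
def M (g : ℕ → Γ) (n i : ℕ) : Subgroup Γ := closure {x | ∃ l, i ≤ l ∧ l < n ∧ x = g l}

/-- all letters lie in the term number `i` -/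
def inW (n i : ℕ) (w : List ℕ) : Bool :=
  w.all fun l => (Nat.ble i l && Nat.blt l n) || (Nat.ble (i + n) l && Nat.blt l (n + n))

theorem gen_mem (g : ℕ → Γ) {n i l : ℕ} (h1 : i ≤ l) (h2 : l < n) : g l ∈ M g n i :=
  subset_closure ⟨l, h1, h2, rfl⟩

theorem M_anti (g : ℕ → Γ) (n : ℕ) {i j : ℕ} (h : i ≤ j) : M g n j ≤ M g n i :=
  closure_mono fun _ ⟨l, h1, h2, e⟩ => ⟨l, h.trans h1, h2, e⟩

theorem M_top (g : ℕ → Γ) {n i : ℕ} (h : n ≤ i) : M g n i = ⊥ := by
  rw [M, closure_eq_bot_iff]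
  rintro _ ⟨l, h1, h2, -⟩
  omega

theorem ev_mem {g : ℕ → Γ} {n : ℕ} (hi : ∀ l < n, g (l + n) = (g l)⁻¹) {i : ℕ} {w : List ℕ}
    (h : inW n i w = true) : ev g w ∈ M g n i := by
  refine list_prod_mem fun x hx => ?_
  obtain ⟨l, hl, rfl⟩ := List.mem_map.1 hx
  have := List.all_eq_true.1 h l hl
  simp only [Bool.or_eq_true, Bool.and_eq_true, Nat.ble_eq, Nat.blt_eq] at this
  rcases this with ⟨a, b⟩ | ⟨a, b⟩
  · exact gen_mem g a b
  · obtain ⟨k, rfl⟩ : ∃ k, l = k + n := ⟨l - n, by omega⟩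
    rw [hi k (by omega)]
    exact inv_mem (gen_mem g (by omega) (by omega))

/-- a polycyclic central series with factors of order three -/
structure Pc (g : ℕ → Γ) (n : ℕ) : Prop where
  cube : ∀ l < n, g l ^ 3 = 1
  inv : ∀ l < n, g (l + n) = (g l)⁻¹
  comm : ∀ j < n, ∀ k < n, (g k)⁻¹ * ((g j)⁻¹ * g k * g j) ∈ M g n (k + 1)
  nmem : ∀ k < n, g k ∉ M g n (k + 1)

namespace Pc

variable {g : ℕ → Γ} {n : ℕ} (h : Pc g n)
include h

theorem ind {p : Γ → Prop} (h1 : p 1) (hm : ∀ x y, p x → p y → p (x * y)) {i : ℕ}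
    (hg : ∀ l, i ≤ l → l < n → p (g l)) : ∀ u ∈ M g n i, p u := by
  intro u hu
  induction hu using closure_induction'' with
  | one => exact h1
  | mem x hx => obtain ⟨l, a, b, rfl⟩ := hx; exact hg l a b
  | inv_mem x hx =>
    obtain ⟨l, a, b, rfl⟩ := hx
    have : (g l)⁻¹ = g l * g l := by
      rw [inv_eq_iff_mul_eq_one, ← h.cube l b, pow_three]
    rw [this]; exact hm _ _ (hg l a b) (hg l a b)
  | mul x y _ _ a b => exact hm _ _ a b

theorem conj_mem (i : ℕ) : ∀ u ∈ M g n 0, ∀ m ∈ M g n i, u⁻¹ * m * u ∈ M g n i := by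
  refine h.ind (p := fun u => ∀ m ∈ M g n i, u⁻¹ * m * u ∈ M g n i) (by simp)
    (fun x y a b m hm => by simpa [mul_assoc] using b _ (a m hm)) fun j _ hj => ?_
  refine h.ind (p := fun m => (g j)⁻¹ * m * g j ∈ M g n i) (by simp) (fun x y a b => ?_)
    fun k hk hk' => ?_
  · simpa [mul_assoc] using mul_mem a b
  · simpa [mul_assoc] using mul_mem (gen_mem g hk hk') (M_anti g n (by omega) (h.comm j hj k hk'))

theorem comm_mem {k : ℕ} (hk : k < n) :
    ∀ u ∈ M g n 0, (g k)⁻¹ * (u⁻¹ * g k * u) ∈ M g n (k + 1) := by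
  intro u hu
  refine (h.ind (p := fun u => u ∈ M g n 0 ∧ (g k)⁻¹ * (u⁻¹ * g k * u) ∈ M g n (k + 1))
    (by simp) (fun x y a b => ⟨mul_mem a.1 b.1, ?_⟩)
    (fun j _ hj => ⟨gen_mem g (by omega) hj, h.comm j hj k hk⟩) u hu).2
  simpa [mul_assoc] using mul_mem b.2 (h.conj_mem _ y b.1 _ a.2)

theorem comm_pow {k : ℕ} (hk : k < n) {u : Γ} (hu : u ∈ M g n 0) (a : ℕ) :
    (g k ^ a)⁻¹ * (u⁻¹ * g k ^ a * u) ∈ M g n (k + 1) := by
  induction a with
  | zero => simp
  | succ a ih =>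
    have := mul_mem (h.conj_mem _ _ (gen_mem g (Nat.zero_le k) hk) _ ih) (h.comm_mem hk u hu)
    simpa [mul_assoc, pow_succ] using this

theorem exists_pow {k : ℕ} (hk : k < n) : ∀ m ∈ M g n k, ∃ a < 3, (g k ^ a)⁻¹ * m ∈ M g n (k + 1) := by
  intro m hm
  obtain ⟨a, ha⟩ := h.ind (p := fun m => ∃ a, (g k ^ a)⁻¹ * m ∈ M g n (k + 1)) ⟨0, by simp⟩
    (fun x y ⟨a, ha⟩ ⟨b, hb⟩ => ⟨a + b, by
      have := mul_mem (h.conj_mem _ _ (pow_mem (gen_mem g (Nat.zero_le k) hk) b) _ ha) hb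
      simpa [mul_assoc, pow_add] using this⟩)
    (fun l a b => by
      rcases a.eq_or_lt with rfl | a
      · exact ⟨1, by simp⟩
      · exact ⟨0, by simpa using gen_mem g a b⟩) m hm
  exact ⟨a % 3, Nat.mod_lt _ (by omega), by rwa [← pow_eq_pow_mod a (h.cube k hk)]⟩

theorem pow_nmem {k : ℕ} (hk : k < n) {a : ℕ} (ha : ¬ 3 ∣ a) : g k ^ a ∉ M g n (k + 1) := fun hm => by
  apply h.nmem k hk
  have h1 := pow_mem hm a
  rw [← pow_mul, pow_eq_pow_mod _ (h.cube k hk)] at h1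
  have : a * a % 3 = 1 := by
    have : a % 3 = 1 ∨ a % 3 = 2 := by omega
    rcases this with e | e <;> simp [Nat.mul_mod, e]
  rwa [this, pow_one] at h1

theorem card_succ {k : ℕ} (hk : k < n) : Nat.card (M g n k) = 3 * Nat.card (M g n (k + 1)) := by
  let f : Fin 3 × M g n (k + 1) → M g n k := fun x =>
    ⟨g k ^ x.1.1 * x.2, mul_mem (pow_mem (gen_mem g le_rfl hk) _) (M_anti g n (by omega) x.2.2)⟩
  rw [← Nat.card_congr (Equiv.ofBijective f ⟨?_, ?_⟩), Nat.card_prod, Nat.card_fin]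
  · rintro ⟨a, x⟩ ⟨b, y⟩ e
    have e1 : g k ^ a.1 * x = g k ^ b.1 * y := congrArg Subtype.val e
    have e2 : a = b := by
      by_contra hne
      apply h.pow_nmem hk (a := a.1 + 2 * b.1) (by have := a.2; have := b.2; omega)
      have e3 : g k ^ (a.1 + 2 * b.1) = y * (x : Γ)⁻¹ := by
        have e4 : g k ^ (2 * b.1) * g k ^ b.1 = 1 := by
          rw [← pow_add, show 2 * b.1 + b.1 = 3 * b.1 by omega, pow_mul, h.cube k hk, one_pow]
        rw [add_comm, pow_add, eq_mul_inv_iff_mul_eq, mul_assoc, e1, ← mul_assoc, e4, one_mul]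
      rw [e3]; exact mul_mem y.2 (inv_mem x.2)
    subst e2
    rw [Subtype.ext (mul_left_cancel e1 : (x : Γ) = y)]
  · rintro ⟨m, hm⟩
    obtain ⟨a, ha, h1⟩ := h.exists_pow hk m hm
    exact ⟨⟨⟨a, ha⟩, ⟨_, h1⟩⟩, Subtype.ext (by simp [f])⟩

theorem card_M (d : ℕ) : ∀ k, k + d = n → Nat.card (M g n k) = 3 ^ d := by
  induction d with
  | zero => intro k e; rw [M_top g (by omega), card_bot, pow_zero]
  | succ d ih => intro k e; rw [h.card_succ (by omega), ih _ (by omega), pow_succ']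

theorem letter {k d : ℕ} (hk : k < n) (hd : d = k ∨ d = k + n) :
    ∃ a, ¬ 3 ∣ a ∧ g d = g k ^ a := by
  rcases hd with rfl | rfl
  · exact ⟨1, by omega, by simp⟩
  · exact ⟨2, by omega, by rw [h.inv k hk, inv_eq_iff_mul_eq_one, ← h.cube k hk, pow_succ' _ 2]⟩

end Pc

/-- certificates -/
inductive T
  | split (a b c : T)
  | inert (c m : List ℕ) (t : T)
  | cube (m : List ℕ)
  | leaf (w : List ℕ) (j : ℕ)

/-- the check -/
def chk (eq : List ℕ → List ℕ → Bool) (n : ℕ) (r : List (List ℕ)) : T → ℕ → List ℕ → Bool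
  | .split a b c, i, x => Nat.blt i n && chk eq n r a (i + 1) x && chk eq n r b (i + 1) (x ++ [i]) &&
      chk eq n r c (i + 1) (x ++ [i + n])
  | .inert c m t, i, x => Nat.blt i n && (Nat.beq (m.headD 0) i || Nat.beq (m.headD 0) (i + n)) &&
      inW n 0 c && inW n (i + 1) m.tail && eq (x ++ c) (c ++ (x ++ m.headD 0 :: m.tail)) &&
      chk eq n r t (i + 1) x
  | .cube m, i, x => Nat.blt (m.headD 0 % n) i && Nat.blt (m.headD 0) (n + n) &&
      inW n (m.headD 0 % n + 1) m.tail && eq (x ++ (x ++ x)) (m.headD 0 :: m.tail)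
  | .leaf w j, i, x => Nat.ble n i && Nat.blt j r.length && eq (x ++ w) (w ++ r.getD j [])

/-- what is certified -/
def Good (g : ℕ → Γ) (r : List (List ℕ)) (y : Γ) : Prop :=
  y ^ 3 = 1 → ∃ j < r.length, IsConj y (ev g (r.getD j []))

theorem Good.conj {g : ℕ → Γ} {r : List (List ℕ)} {y : Γ} (c : Γ) (h : Good g r (c⁻¹ * y * c)) :
    Good g r y := fun h3 => by
  obtain ⟨j, hj, hc⟩ := h (by
    have := conj_pow (a := c⁻¹) (b := y) (i := 3)
    rw [inv_inv] at this
    rw [this, h3]; simp)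
  exact ⟨j, hj, (isConj_iff.2 ⟨c⁻¹, by simp⟩).trans hc⟩

theorem chk_sound {g : ℕ → Γ} {n : ℕ} (h : Pc g n) {eq : List ℕ → List ℕ → Bool}
    (he : ∀ a b, eq a b = true → ev g a = ev g b) (r : List (List ℕ)) (t : T) :
    ∀ i x, chk eq n r t i x = true → ev g x ∈ M g n 0 → ∀ m ∈ M g n i, Good g r (ev g x * m) := by
  induction t with
  | split a b c iha ihb ihc =>
    intro i x hc hx m hm
    simp only [chk, Bool.and_eq_true, Nat.blt_eq] at hc
    obtain ⟨⟨⟨hi, ha⟩, hb⟩, hc⟩ := hc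
    have hg := gen_mem g (Nat.zero_le i) hi
    obtain ⟨k, hk, h1⟩ := h.exists_pow hi m hm
    interval_cases k
    · simpa using iha _ _ ha hx _ h1
    · have := ihb _ _ hb (by rw [ev_append, ev_single]; exact mul_mem hx hg) _ h1
      simpa [ev_append, ev_single, mul_assoc] using this
    · have := ihc _ _ hc (by rw [ev_append, ev_single, h.inv i hi]; exact mul_mem hx (inv_mem hg)) _ h1
      have e : (g i)⁻¹ = g i ^ 2 := by
        rw [inv_eq_iff_mul_eq_one, ← h.cube i hi, pow_succ' _ 2]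
      rw [ev_append, ev_single, h.inv i hi, e] at this
      simpa [mul_assoc] using this
  | inert c w t ih =>
    intro i x hc hx m hm
    simp only [chk, Bool.and_eq_true, Bool.or_eq_true, Nat.blt_eq, Nat.beq_eq] at hc
    obtain ⟨⟨⟨⟨⟨hi, hd⟩, h1⟩, h2⟩, h3⟩, h4⟩ := hc
    obtain ⟨a, ha, hda⟩ := h.letter hi hd
    have hc := ev_mem h.inv h1
    have hw := ev_mem h.inv h2
    have h5 := he _ _ h3
    rw [ev_append, ev_append, ev_append, ev_cons, hda] at h5
    have hg := gen_mem g (Nat.zero_le i) hi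
    have step : ∀ k, (∀ m ∈ M g n (i + 1), Good g r (ev g x * (g i ^ (k + a) * m))) →
        ∀ m ∈ M g n (i + 1), Good g r (ev g x * (g i ^ k * m)) := fun k hk m hm => by
      refine Good.conj (ev g c) ?_
      have := hk _ (mul_mem (mul_mem (h.conj_mem _ _ (pow_mem hg k) _ hw) (h.comm_pow hi hc k))
        (h.conj_mem _ _ hc _ hm))
      convert this using 1
      calc _ = (ev g c)⁻¹ * (ev g x * ev g c) * ((ev g c)⁻¹ * (g i ^ k * m) * ev g c) := by group
        _ = _ := by rw [h5, add_comm, pow_add]; group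
    have base : ∀ k, ∀ m ∈ M g n (i + 1), Good g r (ev g x * (g i ^ (3 * k) * m)) := fun k m hm => by
      rw [pow_mul, h.cube i hi, one_pow, one_mul]
      exact ih _ _ h4 hx m hm
    obtain ⟨k, hk, h6⟩ := h.exists_pow hi m hm
    rw [← mul_inv_cancel_left (g i ^ k) m]
    by_cases e0 : 3 ∣ k
    · obtain ⟨j, rfl⟩ := e0
      exact base j _ h6
    by_cases e1 : 3 ∣ k + a
    · obtain ⟨j, hj⟩ := e1
      exact step k (hj ▸ base j) _ h6
    · obtain ⟨j, hj⟩ : 3 ∣ k + a + a := by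
        have h7 : a % 3 = 1 ∨ a % 3 = 2 := by omega
        have h8 : k = 1 ∨ k = 2 := by omega
        rcases h7 with h7 | h7 <;> rcases h8 with h8 | h8 <;> omega
      exact step k (step _ (hj ▸ base j)) _ h6
  | cube w =>
    intro i x hc hx m hm h3
    simp only [chk, Bool.and_eq_true, Nat.blt_eq] at hc
    obtain ⟨⟨⟨hi, hd⟩, h1⟩, h2⟩ := hc
    have hn : 0 < n := by omega
    have hk := Nat.mod_lt (w.headD 0) hn
    obtain ⟨a, ha, hda⟩ := h.letter (d := w.headD 0) hk (by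
      rcases Nat.lt_or_ge (w.headD 0) n with e | e
      · exact Or.inl (Nat.mod_eq_of_lt e).symm
      · right
        rw [Nat.mod_eq_sub_mod e, Nat.mod_eq_of_lt (by omega)]; omega)
    have h5 := he _ _ h2
    rw [ev_append, ev_append, ev_cons, hda] at h5
    exfalso
    apply h.pow_nmem hk ha
    have hw := ev_mem h.inv h1
    have hm' := M_anti g n (Nat.succ_le_of_lt hi) hm
    have h6 := mul_mem (mul_mem (h.conj_mem _ _ (mul_mem hx hx) _ hm') (h.conj_mem _ _ hx _ hm')) hm'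
    have e : g (w.headD 0 % n) ^ a = (((ev g x * ev g x)⁻¹ * m * (ev g x * ev g x)) *
        ((ev g x)⁻¹ * m * ev g x) * m)⁻¹ * (ev g w.tail)⁻¹ := by
      rw [eq_mul_inv_iff_mul_eq, ← h5, eq_inv_iff_mul_eq_one, ← h3]
      simp only [pow_succ, pow_zero]
      group
    rw [e]
    exact mul_mem (inv_mem h6) (inv_mem hw)
  | leaf w j =>
    intro i x hc _ m hm _
    simp only [chk, Bool.and_eq_true, Nat.blt_eq, Nat.ble_eq] at hc
    obtain ⟨⟨hi, hj⟩, h2⟩ := hc
    rw [M_top g hi, mem_bot] at hm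
    have h5 := he _ _ h2
    rw [ev_append, ev_append] at h5
    exact ⟨j, hj, isConj_iff.2 ⟨(ev g w)⁻¹, by
      rw [hm, mul_one, inv_inv, mul_assoc, h5, inv_mul_cancel_left]⟩⟩

end Cfsg.Agent.H38.PT
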