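import Cfsg.Agent.H38.TenB
import Cfsg.Agent.H97.CoQ

/-! Groups of Monster type: the normaliser of `2^10` does not centralise `z`. -/

set_option autoImplicit false

namespace Cfsg.Agent.H38.MT

open Subgroup H15 H97
open Cfsg.Agent.H14 (idx bits enc)
open scoped Pointwise

universe u

variable {G : Type u} [Group G] {z : G} {Q : Subgroup G}
  {π : centralizer ({z} : Set G) →* Spor.Co1} {R : G → leechLattice → Prop}
  [Finite G] (M : MD z Q π R) {e : Finset GolayPt} {g : G}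

include M in
theorem exists_swap (hs : g * z * g⁻¹ ∈ Q) (hne : g * z * g⁻¹ ≠ z) :
    ∃ g, R (g * z * g⁻¹) (e8 none) ∧ g * (g * z * g⁻¹) * g⁻¹ = z := by
  obtain ⟨v, hv, hv'⟩ := M.type_four hs hne
  obtain ⟨q, hq⟩ := M.ex' (e8 none)
  obtain ⟨c, h3, h4⟩ := M.trans hv hq (Or.inr ⟨hv', norm_e8 _⟩)
  have h8 : R (c * g * z * (c * g)⁻¹) (e8 none) := by
    rwa [show c * g * z * (c * g)⁻¹ = c * (g * z * g⁻¹) * c⁻¹ by group, h4]
  generalize c * g = g at h8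
  obtain ⟨v, hv, hv'⟩ := M.type_four (g := g⁻¹) (by simpa using mem_cjs.1 (z_mem M h8)) fun h =>
    s_ne M h8 (by conv_lhs => rw [← h]
                  group)
  obtain ⟨c, h3, h4⟩ := M.trans h8 hv (Or.inr ⟨norm_e8 _, hv'⟩)
  have e1 : g * c * z * (g * c)⁻¹ = g * z * g⁻¹ := by
    rw [mul_assoc g, mem_centralizer_singleton_iff.1 h3]; group
  refine ⟨g * c, e1 ▸ h8, ?_⟩
  rw [e1]
  calc g * c * (g * z * g⁻¹) * (g * c)⁻¹ = g * (c * (g * z * g⁻¹) * c⁻¹) * g⁻¹ := by group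
    _ = z := by rw [h4]; group

variable (h8 : R (g * z * g⁻¹) (e8 none)) (hg : g * (g * z * g⁻¹) * g⁻¹ = z)
  {he : IsCw e} {hc : e.card = 8}
include M h8 hg

omit [Finite G] h8 in
theorem inv_conj_mem {x : G} : g⁻¹ * x * g ∈ cjs g Q ↔ x ∈ Q := by
  have h1 : g * g * z = z * (g * g) := by
    conv_rhs => rw [← hg]
    group
  rw [mem_cjs]
  constructor
  · intro h
    simpa [mul_assoc] using M.lx.norm _ h1 _ h
  · intro h
    simpa [mul_assoc] using M.lx.norm _ (Commute.inv_left h1) _ h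

theorem inv_conj_two (hc : e.card = 8) {x : G} (hx : R x (lTwo he)) :
    (g⁻¹ * x * g) * z = z * (g⁻¹ * x * g) ∧ Nz z Q (g⁻¹ * x * g) := by
  have h1 := (comm_s M h8 hx).2 (by rw [lTwo_apply]; split_ifs <;> rfl)
  refine ⟨?_, fun y hy h => nz_two M h8 hc hx _ (conj_mem_cjs.2 hy) ?_⟩
  · calc g⁻¹ * x * g * z = g⁻¹ * (x * (g * z * g⁻¹)) * g := by group
      _ = _ := by rw [h1]; group
  · calc x * (g * y * g⁻¹) * x⁻¹ = g * (g⁻¹ * x * g * y * (g⁻¹ * x * g)⁻¹) * g⁻¹ := by group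
      _ = _ := by rw [h]; group

theorem exists_octad (hc : e.card = 8) {x : G} (hx : R x (lTwo he)) :
    ∃ e' he', e'.card = 8 ∧ Ov π (g⁻¹ * x * g) (signC e' he') := by
  obtain ⟨h1, h2⟩ := inv_conj_two M h8 hg hc hx
  have h3 : g⁻¹ * x * g * (g⁻¹ * x * g) = 1 := by
    calc _ = g⁻¹ * (x * x) * g := by group
      _ = _ := by rw [Z0_sq M he hc ⟨_, fx_vTwo he, hx⟩]; group
  have A : ∀ d hd, d.card ≤ 12 → Ov π (g⁻¹ * x * g) (signC d hd) → d.card = 8 := by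
    intro d hd h ho
    rcases hd.card_cases with h4 | h4 | h4 | h4 | h4
    · obtain rfl := Finset.card_eq_zero.1 h4
      rw [signC_empty] at ho
      exact absurd (mem_cjs.2 (ho.one M)) (two_not_mem M h8 hc hx)
    · exact h4
    · exact (not_nz_dodecad M h8 h4 ho h2 h3).elim
    all_goals omega
  obtain ⟨d, hd, ho⟩ := exists_sign M h8 ((inv_conj_mem M hg).2 (M.mem hx)) h1
  by_cases h : d.card ≤ 12
  · exact ⟨d, hd, A d hd h ho, ho⟩
  · exact ⟨_, hd.compl, A _ _ (by rw [card_compl']; omega) ho.compl, ho.compl⟩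

theorem inv_conj_mem_Z0 {e' : Finset GolayPt} {he' : IsCw e'} (hc : e.card = 8)
    (hc' : e'.card = 8) {x b : G} (hx : R x (lTwo he)) (ho : Ov π (g⁻¹ * x * g) (signC e' he'))
    (hb : b ∈ cjs g Q) (h : ∀ w ∈ cjs g Q, w * x * w⁻¹ = x → w * b * w⁻¹ = b) :
    g⁻¹ * b * g ∈ Z0 M e' :=
  mem_Z0_of M he' hc' (mem_cjs.1 hb) fun w u hw hu => by
    have h1 := comm_of_spl M ho (inv_conj_two M h8 hg hc hx).2 hw hu
    have h2 := h _ (conj_mem_cjs.2 (M.mem hw)) (by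
      calc g * w * g⁻¹ * x * (g * w * g⁻¹)⁻¹
          = g * (g⁻¹ * x * g * w * (g⁻¹ * x * g)⁻¹ * w⁻¹) * g⁻¹ * x * x⁻¹ * x *
            (g * (w * (g⁻¹ * x * g * w * (g⁻¹ * x * g)⁻¹)⁻¹) * g⁻¹) := by
            rw [h1]
            have := mul_inv_eq_iff_eq_mul.1 h1
            calc g * w * g⁻¹ * x * (g * w * g⁻¹)⁻¹ = g * (w * (g⁻¹ * x * g)) * w⁻¹ * g⁻¹ := by group
              _ = _ := by rw [← this]; group
        _ = x := by rw [h1]; group)
    calc w * (g⁻¹ * b * g) = g⁻¹ * (g * w * g⁻¹ * b * (g * w * g⁻¹)⁻¹) * g * w := by group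
      _ = _ := by rw [h2]

theorem exists_third {x : G} (hx : R x (lTwo he)) : ∃ c ∈ cjs g Q, c ∈ EE M h8 he hc ∧ c ∉ Q ∧
    ∀ w ∈ cjs g Q, w * x * w⁻¹ = x → w * c * w⁻¹ = c := by
  have L := lx_cjs M.lx g
  obtain ⟨q, hq⟩ := M.ex' lOdd
  have e1 := odd_s M h8 hq
  have hs := M.lx.cen _ (M.mem h8)
  have hxs := (comm_s M h8 hx).2 (by rw [lTwo_apply]; split_ifs <;> rfl)
  have hy : g * q * g⁻¹ ∈ cjs g Q := conj_mem_cjs.2 (M.mem hq)
  have hyz : g * q * g⁻¹ * z * (g * q * g⁻¹)⁻¹ = g * z * g⁻¹ * z := by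
    conv_lhs => rw [← hg]
    calc _ = g * (q * (g * z * g⁻¹) * q⁻¹) * g⁻¹ := by group
      _ = g * z * g⁻¹ * (g * (g * z * g⁻¹) * g⁻¹) := by rw [e1]; group
      _ = _ := by rw [hg]
  generalize g * q * g⁻¹ = y at hy hyz
  have hcm : y * (x * y⁻¹ * x⁻¹) ∈ cjs g Q := mul_mem hy (L.norm x hxs _ (inv_mem hy))
  have hw : ∀ w ∈ cjs g Q, w * x * w⁻¹ = x →
      w * (y * (x * y⁻¹ * x⁻¹)) * w⁻¹ = y * (x * y⁻¹ * x⁻¹) := fun w hw h => by
    have e2 : w * (y * (x * y⁻¹ * x⁻¹)) * w⁻¹ =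
        w * y * w⁻¹ * (w * x * w⁻¹) * (w * y * w⁻¹)⁻¹ * (w * x * w⁻¹)⁻¹ := by group
    rw [e2, h]
    rcases L.comm w hw y hy with h1 | h1 <;> rw [h1]
    · group
    · rw [← L.cen y hy]
      calc _ = y * (g * z * g⁻¹ * x * (g * z * g⁻¹)⁻¹) * y⁻¹ * x⁻¹ := by group
        _ = _ := by rw [← hxs]; group
  have hx1 : R (q⁻¹ * x * q⁻¹⁻¹) (lTwo he) := by
    rcases M.lx.comm _ (inv_mem (M.mem hq)) x (M.mem hx) with h | h <;> rw [h]
    exacts [hx, M.zmul hx]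
  obtain ⟨a1, a2⟩ := inv_conj_two M h8 hg hc hx1
  have hm : y * q * g * z = z * (y * q * g) := by
    have hss : g * z * g⁻¹ * (g * z * g⁻¹) = 1 := L.sq
    calc y * q * g * z = y * (q * (g * z * g⁻¹) * q⁻¹) * y⁻¹ * (y * q * g) := by group
      _ = y * z * y⁻¹ * (y * (g * z * g⁻¹) * y⁻¹) * (y * q * g) := by rw [e1]; group
      _ = _ := by rw [hyz, L.cen y hy, mul_inv_cancel_right, hs, mul_assoc z, hss, mul_one]
  have e3 : y * q * g * (g⁻¹ * (q⁻¹ * x * q⁻¹⁻¹) * g) * (y * q * g)⁻¹ = y * x * y⁻¹ := by group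
  have b2 := a2.conj M.lx hm
  rw [e3] at b2
  have b1 : y * x * y⁻¹ * z = z * (y * x * y⁻¹) := by
    rw [← e3]
    exact ((Commute.mul_left hm a1).mul_left (Commute.inv_left hm))
  have hxZ : x ∈ Z0 M e := ⟨_, fx_vTwo he, hx⟩
  have hnQ : y * (x * y⁻¹ * x⁻¹) ∉ Q := fun h => by
    have h1 : y * x * y⁻¹ ∈ Q := by simpa [mul_assoc] using mul_mem h (M.mem hx)
    have h2 := mem_of_third M h8 hyz h1 (by simpa [mul_assoc] using M.mem hx)
    exact two_not_mem M h8 hc hx (by simpa [mul_assoc] using mul_mem (mul_mem (inv_mem hy) h2) hy)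
  obtain ⟨d, hd, ho⟩ := exists_sign M h8 hcm (by
    rw [show y * (x * y⁻¹ * x⁻¹) = y * x * y⁻¹ * x⁻¹ by group]
    exact Commute.mul_left b1 (Commute.inv_left (M.lx.cen x (M.mem hx))))
  have key : ∀ i j, (i ∈ e ↔ j ∈ e) → (i ∈ d ↔ j ∈ d) := fun i j hij => by
    obtain ⟨b, hb⟩ := M.ex' (w4 i j 1 rfl)
    have h1 := hw b (mem_of_four M h8 hb fun l => by rw [w4_apply]; split_ifs <;> rfl)
      (mul_inv_eq_iff_eq_mul.2 ((M.comm_iff hx hb).2 (by
        rw [dot_w4, lTwo_apply, lTwo_apply]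
        by_cases hi : i ∈ e
        · rw [if_pos hi, if_pos (hij.1 hi)]; rfl
        · rw [if_neg hi, if_neg (fun h => hi (hij.2 h))]; norm_num)).symm)
    have h2 := ho.lab M hb
    rw [← mul_inv_eq_iff_eq_mul.1 h1, mul_inv_cancel_right] at h2
    obtain ⟨w, hw⟩ := M.congr hb h2
    exact sign_w4 hd hw
  obtain ⟨i, hi⟩ := Finset.card_pos.1 (show 0 < e.card by omega)
  obtain ⟨j, hj⟩ := exists_not_mem hc
  have ho' : Ov π (y * (x * y⁻¹ * x⁻¹)) (signC e he) := by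
    by_cases h1 : i ∈ d <;> by_cases h2 : j ∈ d
    · have := ho.compl.congr (d' := ∅) (Finset.eq_empty_of_forall_notMem fun l hl =>
        Finset.mem_compl.1 hl (if h : l ∈ e then (key i l (iff_of_true hi h)).1 h1
          else (key j l (iff_of_false hj h)).1 h2)) isCw_empty
      rw [signC_empty] at this
      exact absurd (this.one M) hnQ
    · exact ho.congr (Finset.ext fun l => if h : l ∈ e then
        iff_of_true ((key i l (iff_of_true hi h)).1 h1) h else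
        iff_of_false (fun h' => h2 ((key j l (iff_of_false hj h)).2 h')) h) he
    · exact ho.compl.congr (Finset.ext fun l => if h : l ∈ e then
        iff_of_true (Finset.mem_compl.2 fun h' => h1 ((key i l (iff_of_true hi h)).2 h')) h else
        iff_of_false (fun h' => Finset.mem_compl.1 h' ((key j l (iff_of_false hj h)).1 h2)) h) he
    · have := ho.congr (d' := ∅) (Finset.eq_empty_of_forall_notMem fun l hl =>
        if h : l ∈ e then h1 ((key i l (iff_of_true hi h)).2 hl)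
          else h2 ((key j l (iff_of_false hj h)).2 hl)) isCw_empty
      rw [signC_empty] at this
      exact absurd (this.one M) hnQ
  refine ⟨_, hcm, ?_, hnQ, hw⟩
  have h3 : y * x * y⁻¹ ∈ EE M h8 he hc := Or.inr ⟨by
    simpa [mul_assoc] using ho'.mul (ov_one M (M.mem hx)), b2⟩
  simpa [mul_assoc] using mul_mem h3 (inv_mem (Z0_le_EE M h8 hxZ))

theorem inv_conj_mem_EE : ∃ (e' : Finset GolayPt) (he' : IsCw e') (hc' : e'.card = 8),
    ∀ a ∈ EE M h8 he hc, g⁻¹ * a * g ∈ EE M h8 he' hc' := by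
  obtain ⟨x, hx⟩ := M.ex' (lTwo he)
  obtain ⟨e', he', hc', ho⟩ := exists_octad M h8 hg hc hx
  have hx' : g⁻¹ * x * g ∈ EE M h8 he' hc' := Or.inr ⟨ho, (inv_conj_two M h8 hg hc hx).2⟩
  have A : ∀ b v, R b v → Fx e v → (∀ i, (v : Vec) i % 4 = 0) → g⁻¹ * b * g ∈ EE M h8 he' hc' :=
    fun b v h1 h2 h3 => Z0_le_EE M h8 (inv_conj_mem_Z0 M h8 hg hc hc' hx ho
      (mem_of_four M h8 h1 h3) fun w hw h => comm_four M h8 hc hx h1 h2 h3 hw h)
  have B : ∀ b ∈ Z0 M e, g⁻¹ * b * g ∈ EE M h8 he' hc' := fun b hb => by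
    rcases Z0_cases M h8 hc hx hb with ⟨v, h1, h2, h3⟩ | ⟨v, h1, h2, h3⟩
    · exact A b v h2 h1 h3
    · simpa [mul_assoc] using mul_mem (A _ v h2 h1 h3) (inv_mem hx')
  obtain ⟨c, c1, c2, c3, c4⟩ := exists_third M h8 hg (hc := hc) hx
  have c5 := Z0_le_EE M h8 (he := he') (hc := hc') (inv_conj_mem_Z0 M h8 hg hc hc' hx ho c1 c4)
  have c6 := c2.resolve_left fun h => c3 (Z0_le M h)
  refine ⟨e', he', hc', fun a ha => ha.elim (B a) fun h => ?_⟩
  simpa [mul_assoc] using mul_mem (B _ (quot_mem_Z0 M hc h.1 h.2 c6.1 c6.2)) c5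

theorem exists_n : ∃ n, (∀ a ∈ EE M h8 he hc, n * a * n⁻¹ ∈ EE M h8 he hc) ∧
    n * (g * z * g⁻¹) * n⁻¹ = z ∧ ∃ s1, Ov π s1 (signC e he) ∧ Nz z Q s1 ∧ Sing z s1 ∧
      ¬ Sing z (z * s1) ∧ n * s1 * n⁻¹ ∈ Q := by
  obtain ⟨e', he', hc', hE⟩ := inv_conj_mem_EE M h8 hg (he := he) (hc := hc)
  obtain ⟨σ, hσ, -⟩ := H56.exists_smul_disjoint (mem_octads he' hc') (mem_octads he' hc')
    (mem_octads he hc) (mem_octads he hc) (by rw [Finset.inter_self, Finset.inter_self, hc, hc'])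
  replace hσ : (σ : Equiv.Perm GolayPt) • e' = e := hσ
  obtain ⟨h, hh⟩ := ov_lift M (permC σ)
  have hn : ∀ a ∈ EE M h8 he hc, h * g⁻¹ * a * (h * g⁻¹)⁻¹ ∈ EE M h8 he hc := fun a ha => by
    have := conj_mem_EE M h8 (he' := he) (hc' := hc) hh (by
      rw [permC_conj_signC]; exact signC_congr hσ) (hE a ha)
    simpa [mul_assoc] using this
  refine ⟨h * g⁻¹, hn, by
    rw [show h * g⁻¹ * (g * z * g⁻¹) * (h * g⁻¹)⁻¹ = h * z * h⁻¹ by group, hh.comm,
      mul_inv_cancel_right], ?_⟩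
  obtain ⟨s0, h1, h2, h3⟩ := exists_nz_mem M h8 he hc
  have hQ : h * g⁻¹ * s0 * (h * g⁻¹)⁻¹ ∈ Q := by
    simpa [mul_assoc] using M.lx.norm h hh.comm _ (mem_cjs.1 h1)
  obtain ⟨v, hv, hv'⟩ := EE_inf M h8 (hn s0 (Or.inr ⟨h2, h3⟩)) hQ
  have h4 : ∀ i ∈ e, (v : Vec) i % 4 = 2 := (hv.cases he hc).resolve_left fun h4 => by
    have := mem_of_four M h8 (hh.inv.lab M hv') fun i => by
      rw [← permHom_apply, ← map_inv, permHom_apply, permC_apply]; exact h4 _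
    refine not_mem_of_sign M (by omega) (by omega) h2 ((inv_conj_mem M hg).1 ?_)
    simpa [mul_assoc] using this
  obtain ⟨i, hi⟩ := Finset.card_pos.1 (show 0 < e.card by omega)
  have hz : R (h * g⁻¹ * z * (h * g⁻¹)⁻¹) (e8 i) := by
    have h5 := hh.lab M h8
    rw [permC_smul_e8] at h5
    rw [e8_congr ((σ : Equiv.Perm GolayPt) none) i]
    convert M.add_two h5 _ using 1
    conv_lhs => rw [← hg]
    group
  have hfi : Fx e (e8 i) := fun l hl => by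
    rw [e8_val, Pi.single_eq_of_ne (by rintro rfl; exact hl hi)]
  have s1 := sing_iff M h8 he hc hv' hv
  have s2 := sing_iff M h8 he hc (M.mul hz hv') (hfi.add hv)
  rw [conj_mul, sing_conj, AddSubgroup.coe_add, sqNorm_add, norm_e8, e8_val, dot_single_left] at s2
  rw [sing_conj] at s1
  have h6 := h4 i hi
  have h7 := hv.norm he hc
  by_cases h64 : (64 : ℤ) ∣ sqNorm (v : Vec)
  · exact ⟨s0, h2, h3, s1.2 h64, fun h => by have := s2.1 h; omega, hQ⟩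
  · refine ⟨z * s0, by simpa using (ov_one M M.lx.mem).mul h2, nz_mul M hc (z_mem_Z0 M) h2 h3,
      s2.2 (by omega), by rw [M.zz]; exact fun h => h64 (s1.1 h), ?_⟩
    rw [← conj_mul]
    exact mul_mem (M.mem hz) hQ

end Cfsg.Agent.H38.MT
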