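import Cfsg.Agent.H38.TenC

/-! Groups of Monster type: coordinates on `2^10`; the singular vectors are the conjugates of `z`. -/

set_option autoImplicit false

namespace Cfsg.Agent.H38.MT

open Subgroup H15 H97
open Cfsg.Agent.H14 (idx bits enc)

universe u

/-- the octad `{∞, 0, 1, 2, 3, 5, 14, 17}` -/
@[irreducible] def OO : Finset GolayPt := XXᶜ

theorem OO_eq : OO = XXᶜ := by unfold OO; rfl

theorem OO_cw : IsCw OO := OO_eq ▸ XX_cw.compl

theorem OO_card : OO.card = 8 := by decide +kernel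

/-- the index set of the coordinates -/
abbrev I10 : Type := Fin 5 ⊕ Fin 5

/-- the space of coordinates -/
abbrev V10 : Type := I10 → ZMod 2

/-- numbering of the index set -/
def ix (k : I10) : ℕ := Sum.elim Fin.val (fun j => 5 + j.val) k

/-- a hyperbolic basis of the sublattice modulo 2 -/
def bvv (k : I10) (i : GolayPt) : ℤ := ((Nat.shiftRight
  0xa66666a66a666666666666a6666666a66a6666666666aa66a66666a66666666666a66a66866666866866666666868880666666666666666666666666a66666a6666666666666a6a6a66666666666666666666aaaa66666666a6666666666a66ae66666666666666666666666666666666666666666666666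
  (4 * (24 * ix k + idx i)) % 16 : ℕ) : ℤ) - 6

theorem bvv_mem : ∀ k, bvv k ∈ leechLattice := by decide +kernel

/-- the basis as lattice vectors -/
def bv (k : I10) : leechLattice := ⟨bvv k, bvv_mem k⟩

theorem fx_bv (k : I10) : Fx OO (bv k) := by
  have : ∀ k, ∀ i ∉ OO, bvv k i = 0 := by decide +kernel
  exact this k

/-- the label with given coordinates -/
def lab (x : V10) : leechLattice := ∑ k, (x k).val • bv k

theorem lab_apply (x : V10) (i : GolayPt) : (lab x : Vec) i = ∑ k, ((x k).val : ℤ) * bvv k i := by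
  simp only [lab, bv, AddSubgroup.val_finset_sum, Finset.sum_apply, AddSubgroupClass.coe_nsmul,
    Pi.smul_apply]
  simp only [nsmul_eq_mul]

theorem fx_lab (x : V10) : Fx OO (lab x) := fun i hi => by
  rw [lab_apply]
  exact Finset.sum_eq_zero fun k _ => mul_eq_zero_of_right _ (fx_bv k i hi)

theorem lab_add (x y : V10) : lab x + lab y = lab (x + y) + (lab (x * y) + lab (x * y)) := by
  simp only [lab, ← Finset.sum_add_distrib, ← add_smul, Pi.add_apply, Pi.mul_apply]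
  refine Finset.sum_congr rfl fun k _ => ?_
  have : ∀ a b : ZMod 2, a.val + b.val = (a + b).val + ((a * b).val + (a * b).val) := by decide
  rw [this]

/-- the Gram matrix -/
def gr (k l : I10) : ℤ := ([0, 0, 0, 0, 0, 0, 0, 0, 0, 0, 0, 64, 32, 32, 32, 0, 16, 32, 0, 32, 0, 32, 64, 32, 32, 0, 0, 16,
  32, 32, 0, 32, 32, 64, 32, 0, 0, 32, 16, 32, 0, 32, 32, 32, 64, 0, 32, 32, 32, 48, 0, 0, 0, 0,
  0, 0, 0, 0, 0, 0, 0, 16, 0, 0, 32, 0, 64, 32, 32, 32, 0, 32, 16, 32, 32, 0, 32, 64, 32, 32, 0,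
  0, 32, 16, 32, 0, 32, 32, 64, 32, 0, 32, 32, 32, 48, 0, 32, 32, 32, 64] : List ℤ).getD (10 * ix k + ix l) 0

theorem gr_eq : ∀ k l, dotInt (bvv k) (bvv l) = gr k l := by decide +kernel

theorem dot_lab (x : V10) (v : Vec) :
    dotInt (lab x : Vec) v = ∑ k, ((x k).val : ℤ) * dotInt (bvv k) v := by
  simp only [dotInt, lab_apply, Finset.sum_mul, Finset.mul_sum, mul_assoc]
  exact Finset.sum_comm

theorem lab_norm (x : V10) : (64 : ℤ) ∣ sqNorm (lab x : Vec) ↔
    quadFormPlus 5 (ZMod 2) x = x (.inl 0) * x (.inr 0) := by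
  rw [← dot_self, dot_lab]
  simp only [dot_comm (bvv _) (lab x : Vec), dot_lab, gr_eq]
  simp only [Fintype.sum_sum_type, Fin.sum_univ_five, quadFormPlus]
  generalize x (.inl 0) = a0, x (.inl 1) = a1, x (.inl 2) = a2, x (.inl 3) = a3, x (.inl 4) = a4,
    x (.inr 0) = b0, x (.inr 1) = b1, x (.inr 2) = b2, x (.inr 3) = b3, x (.inr 4) = b4
  revert a0 a1 a2 a3 a4 b0 b1 b2 b3 b4
  decide +kernel

theorem lab_inj (x : V10) (h : ∀ j, (32 : ℤ) ∣ dotInt (lab x : Vec) (bvv j)) (k : I10)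
    (h1 : k ≠ .inl 0) (h2 : k ≠ .inr 0) : x k = 0 := by
  have : (x (.inl 1) = 0 ∧ x (.inl 2) = 0 ∧ x (.inl 3) = 0 ∧ x (.inl 4) = 0) ∧
      x (.inr 1) = 0 ∧ x (.inr 2) = 0 ∧ x (.inr 3) = 0 ∧ x (.inr 4) = 0 := by
    have := And.intro (And.intro (And.intro (h (.inl 1)) (h (.inl 2))) (And.intro (h (.inl 3))
      (h (.inl 4)))) (And.intro (And.intro (h (.inr 1)) (h (.inr 2))) (And.intro (h (.inr 3))
      (h (.inr 4))))
    simp only [dot_lab, gr_eq, Fintype.sum_sum_type, Fin.sum_univ_five] at this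
    revert this
    generalize x (.inl 0) = a0, x (.inl 1) = a1, x (.inl 2) = a2, x (.inl 3) = a3, x (.inl 4) = a4,
      x (.inr 0) = b0, x (.inr 1) = b1, x (.inr 2) = b2, x (.inr 3) = b3, x (.inr 4) = b4
    revert a0 a1 a2 a3 a4 b0 b1 b2 b3 b4
    decide +kernel
  rcases k with k | k <;> fin_cases k <;> simp_all

theorem bv_zero : bv (.inl 0) = 0 ∧ bv (.inr 0) = 0 := by
  simp only [Subtype.ext_iff]
  decide +kernel

/-- coordinates of a vector supported on the octad -/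
def crd (v : Vec) : V10 := fun k => ((dotInt v (bvv k.swap) / 16 : ℤ) : ZMod 2)

/-- `v` is congruent to the label with coordinates `crd v` -/
def CrdOK (v : Vec) : Prop := (∀ i, (v i - ∑ k, ((crd v k).val : ℤ) * bvv k i) % 2 = 0) ∧
  (fun i => (v i - ∑ k, ((crd v k).val : ℤ) * bvv k i) / 2) ∈ leechLattice

instance decCrdOK (v : Vec) : Decidable (CrdOK v) := inferInstanceAs (Decidable (_ ∧ _))

theorem CrdOK.ex {v : leechLattice} (h : CrdOK v) : ∃ w, v = lab (crd v) + (w + w) :=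
  ⟨⟨_, h.2⟩, Subtype.ext (funext fun i => by
    have := h.1 i
    simp only [AddSubgroup.coe_add, Pi.add_apply, lab_apply]
    omega)⟩

theorem crd_gens : (∀ i ∈ OO, CrdOK (w4 i none 1 rfl : Vec)) ∧ CrdOK (vTwo OO) := by
  decide +kernel

theorem w4_eq (i j : GolayPt) : w4 i j 1 rfl = w4 i none 1 rfl + w4 j none 1 rfl +
    w4 none none 1 rfl + (-e8 none + -e8 none) := Subtype.ext <| funext fun l => by
  simp only [AddSubgroup.coe_add, Pi.add_apply, w4_apply, e8_val, Pi.single_apply,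
    AddSubgroup.coe_neg, Pi.neg_apply]
  split_ifs <;> rfl

variable {G : Type u} [Group G] {z : G} {Q : Subgroup G}
  {π : centralizer ({z} : Set G) →* Spor.Co1} {R : G → leechLattice → Prop}
  [Finite G] (M : MD z Q π R) {e : Finset GolayPt} {g s1 : G}

include M in
theorem exists_lab {b : G} (hb : b ∈ Z0 M OO) : ∃ x, R b (lab x) := by
  let Z1 : Subgroup G :=
    { carrier := {b | ∃ x, R b (lab x)}
      one_mem' := ⟨0, by simpa [lab] using M.two 0⟩
      mul_mem' := by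
        rintro a b ⟨x, hx⟩ ⟨y, hy⟩
        refine ⟨x + y, ?_⟩
        have := M.add_two (M.mul hx hy) (-lab (x * y))
        rw [lab_add] at this
        convert this using 1
        abel
      inv_mem' := fun ⟨x, hx⟩ => ⟨x, M.inv hx⟩ }
  by_contra hn
  obtain ⟨x, hx, h1, h2⟩ := M.lx.sep Z1 (fun _ ⟨_, h⟩ => M.mem h) ⟨0, by simpa [lab] using M.zed⟩
    b (Z0_le M hb) hn
  obtain ⟨u, hu⟩ := M.ex x hx
  have A : ∀ v : leechLattice, CrdOK v → ∃ b, R b v ∧ x * b = b * x := fun v hv => by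
    obtain ⟨w, hw⟩ := hv.ex
    obtain ⟨b, hb⟩ := M.ex' (lab (crd v))
    exact ⟨b, hw ▸ M.add_two hb w, h1 b ⟨_, hb⟩⟩
  have B : ∀ i ∈ OO, ∀ j ∈ OO, ∃ b, R b (w4 i j 1 rfl) ∧ x * b = b * x := fun i hi j hj => by
    obtain ⟨a, a1, a2⟩ := A _ (crd_gens.1 i hi)
    obtain ⟨b, b1, b2⟩ := A _ (crd_gens.1 j hj)
    obtain ⟨c, c1, c2⟩ := A _ (crd_gens.1 none (by decide +kernel))
    exact ⟨_, w4_eq i j ▸ M.add_two (M.mul (M.mul a1 b1) c1) _,
      Commute.mul_right (Commute.mul_right a2 b2) c2⟩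
  rw [← Z0_comm M OO_cw OO_card hb hu (spl_of_comm M OO_cw OO_card hu
    (fun i hi j hj => B i hi j hj) (A _ crd_gens.2)), mul_inv_cancel_right] at h2
  exact z_mul_ne M b h2.symm

omit [Finite G] in
theorem fx_sub (he : IsCw e) (u : leechLattice) : Fx e (u + signC e he • (-u)) := fun i hi => by
  simp [signC_apply, hi]

omit [Finite G] in
theorem dot_sub (he : IsCw e) (u : leechLattice) {p : leechLattice} (hp : Fx e p) :
    dotInt ((u + signC e he • (-u) : leechLattice) : Vec) p = 2 * dotInt (u : Vec) p := by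
  rw [dotInt, dotInt, Finset.mul_sum]
  refine Finset.sum_congr rfl fun i _ => ?_
  by_cases hi : i ∈ e
  · simp only [AddSubgroup.coe_add, Pi.add_apply, signC_apply, if_pos hi, AddSubgroup.coe_neg,
      Pi.neg_apply]; ring
  · rw [hp i hi]; ring

include M in
theorem exists_comm {he : IsCw e} (hc : e.card = 8) {b : G} (hb : b ∈ Z0 M e) :
    ∃ u, R b (u + signC e he • (-u)) := by
  let Z1 : Subgroup G :=
    { carrier := {b | ∃ u, R b (u + signC e he • (-u))}
      one_mem' := ⟨0, by simpa [co0_smul_zero] using M.two 0⟩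
      mul_mem' := by
        rintro a b ⟨x, hx⟩ ⟨y, hy⟩
        refine ⟨x + y, ?_⟩
        convert M.mul hx hy using 1
        rw [neg_add, co0_smul_add]
        abel
      inv_mem' := fun ⟨x, hx⟩ => ⟨x, M.inv hx⟩ }
  by_contra hn
  obtain ⟨x, hx, h1, h2⟩ := M.lx.sep Z1 (fun _ ⟨_, h⟩ => M.mem h)
    ⟨0, by simpa [co0_smul_zero] using M.zed⟩ b (Z0_le M hb) hn
  obtain ⟨u, hu⟩ := M.ex x hx
  obtain ⟨c, hc'⟩ := M.ex' (u + signC e he • (-u))
  obtain ⟨w, hw⟩ := (M.one_iff hc').1 (M.lx.large c fun a ha => by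
    obtain ⟨u', hu'⟩ := M.ex a ha
    obtain ⟨c', hc''⟩ := M.ex' (u' + signC e he • (-u'))
    have h3 := (M.comm_iff hu hc'').1 (h1 c' ⟨_, hc''⟩)
    have h4 := dot_sub he u (fx_sub he u')
    have h5 := dot_sub he u' (fx_sub he u)
    rw [M.comm_iff hc' hu', dot_comm]
    rw [dot_comm] at h4
    omega)
  rw [← Z0_comm M he hc hb hu ((spl_iff he).2 ⟨-w, by
    rw [co0_smul_neg, ← sub_eq_add_neg, sub_eq_iff_eq_add] at hw
    conv_rhs => rw [hw]
    abel⟩), mul_inv_cancel_right] at h2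
  exact z_mul_ne M b h2.symm

/-- a singular element of `2^10` outside `Q` -/
structure S1 (π : centralizer ({z} : Set G) →* Spor.Co1) (Q : Subgroup G) {e : Finset GolayPt}
    (he : IsCw e) (s1 : G) : Prop where
  ov : Ov π s1 (signC e he)
  nz : Nz z Q s1
  sing : Sing z s1
  nsing : ¬ Sing z (z * s1)

variable (h8 : R (g * z * g⁻¹) (e8 none)) {he : IsCw e}
include M

theorem S1.exists_conj (S : S1 π Q he s1) (hc : e.card = 8) {b : G} (hb : b ∈ Z0 M e) :
    ∃ q u, R q u ∧ R b (u + signC e he • (-u)) ∧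
      (b = q * s1 * q⁻¹ * s1⁻¹ ∨ b = z * (q * s1 * q⁻¹ * s1⁻¹)) := by
  obtain ⟨u, hu⟩ := exists_comm M (he := he) hc hb
  obtain ⟨q, hq⟩ := M.ex' u
  refine ⟨q, u, hq, hu, ?_⟩
  simpa only [mul_assoc] using M.uniq (M.mul hq (S.ov.lab M (M.inv (M.neg hq)))) hu

omit [Finite G] in
theorem S1.conj (S : S1 π Q he s1) {q : G} (hq : q ∈ Q) : Sing z (q * s1 * q⁻¹ * s1⁻¹ * s1) ∧
    ¬ Sing z (z * (q * s1 * q⁻¹ * s1⁻¹) * s1) := by
  refine ⟨by rw [inv_mul_cancel_right]; exact S.sing.conj q, fun h => S.nsing ?_⟩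
  rwa [mul_assoc, inv_mul_cancel_right, ← mul_assoc, ← mul_assoc, ← M.lx.cen q hq, mul_assoc q,
    sing_conj] at h

theorem S1.flip (S : S1 π Q he s1) (hc : e.card = 8) {b : G} (hb : b ∈ Z0 M e) :
    Sing z (z * b * s1) ↔ ¬ Sing z (b * s1) := by
  obtain ⟨q, u, hq, -, rfl | rfl⟩ := S.exists_conj M hc hb
  · exact iff_of_false (S.conj M (M.mem hq)).2 (not_not.2 (S.conj M (M.mem hq)).1)
  · rw [M.zz]
    exact iff_of_true (S.conj M (M.mem hq)).1 (S.conj M (M.mem hq)).2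

theorem S1.exists_conj' (S : S1 π Q he s1) (hc : e.card = 8) {b : G} (hb : b ∈ Z0 M e)
    (h : Sing z (b * s1)) : ∃ q ∈ Q, q * s1 * q⁻¹ = b * s1 := by
  obtain ⟨q, u, hq, -, rfl | rfl⟩ := S.exists_conj M hc hb
  · exact ⟨q, M.mem hq, by rw [inv_mul_cancel_right]⟩
  · exact absurd h (S.conj M (M.mem hq)).2

include h8

theorem sing_z (he : IsCw e) (hc : e.card = 8) {b : G} (hb : b ∈ Z0 M e) :
    Sing z (z * b) ↔ Sing z b := by
  obtain ⟨v, h1, h2⟩ := hb
  rw [sing_iff M h8 he hc h2 h1, sing_iff M h8 he hc (M.zmul h2) h1]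

theorem S1.eta_mul (S : S1 π Q he s1) (hc : e.card = 8) {b b' : G} (hb : b ∈ Z0 M e)
    (hb' : b' ∈ Z0 M e) (h : Sing z (b * s1) ↔ Sing z b) (h' : Sing z (b' * s1) ↔ Sing z b') :
    Sing z (b' * b * s1) ↔ Sing z (b' * b) := by
  obtain ⟨q, u, hq, h1, h2⟩ := S.exists_conj M hc hb
  obtain ⟨q', u', hq', h1', h2'⟩ := S.exists_conj M hc hb'
  have f := fx_sub he u
  have f' := fx_sub he u'
  have n1 := f.norm he hc
  have n2 := f'.norm he hc
  have n3 := f'.dot he hc f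
  have n4 := dot_sub he u f'
  rw [sing_iff M h8 he hc h1 f] at h
  rw [sing_iff M h8 he hc h1' f'] at h'
  rw [sing_iff M h8 he hc (M.mul h1' h1) (f'.add f), AddSubgroup.coe_add, sqNorm_add]
  rw [dot_comm] at n4
  have k := S.conj M (M.mem hq)
  have k' := S.conj M (M.mem hq')
  have k2 := S.conj M (mul_mem (M.mem hq) (M.mem hq'))
  have hc' := M.mul hq' (S.ov.lab M (M.inv (M.neg hq')))
  simp only [← mul_assoc] at hc'
  rw [show q * q' * s1 * (q * q')⁻¹ * s1⁻¹ =
    q * (q' * s1 * q'⁻¹ * s1⁻¹) * q⁻¹ * (q * s1 * q⁻¹ * s1⁻¹) by group] at k2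
  have n5 := M.comm_iff hq hc'
  have n6 := M.lx.comm q (M.mem hq) _ (M.mem hc')
  have hz := M.lx.cen _ (M.mem hc')
  generalize q' * s1 * q'⁻¹ * s1⁻¹ = c' at *
  generalize q * s1 * q⁻¹ * s1⁻¹ = c at *
  have e1 : c' * (z * c) = z * (c' * c) := by rw [← mul_assoc, hz, mul_assoc]
  have e2 : z * c' * c = z * (c' * c) := mul_assoc _ _ _
  have e3 : z * c' * (z * c) = c' * c := by rw [mul_assoc, e1, M.zz]
  rcases n6 with n6 | n6
  · have n7 := n5.1 (mul_inv_eq_iff_eq_mul.1 n6)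
    rw [n6] at k2
    rcases h2 with rfl | rfl <;> rcases h2' with rfl | rfl <;>
      simp only [e1, e2, e3, k.1, k.2, k'.1, k'.2, k2.1, k2.2, true_iff, false_iff] at h h' ⊢ <;>
      omega
  · have n7 : ¬ (16 : ℤ) ∣ _ := fun h => z_mul_ne M c' (by
      rw [← n6, n5.2 h, mul_inv_cancel_right])
    rw [n6, e2, M.zz] at k2
    rcases h2 with rfl | rfl <;> rcases h2' with rfl | rfl <;>
      simp only [e1, e2, e3, k.1, k.2, k'.1, k'.2, k2.1, k2.2, true_iff, false_iff] at h h' ⊢ <;>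
      omega

theorem S1.exists_phi (S : S1 π Q OO_cw s1) : ∃ Φ : V10 → G, Function.Injective Φ ∧
    (∀ x y, Φ (x + y) = Φ x * Φ y) ∧ (∀ a, a ∈ EE M h8 OO_cw OO_card ↔ ∃ x, Φ x = a) ∧
    (∀ x, Sing z (Φ x) ↔ quadFormPlus 5 (ZMod 2) x = 0) ∧ Φ (Pi.single (.inl 0) 1) = z ∧
    Φ (Pi.single (.inr 0) 1) = s1 ∧ ∀ x, x (.inr 0) = 0 → R (Φ x) (lab x) := by
  have hE : s1 ∈ EE M h8 OO_cw OO_card := Or.inr ⟨S.ov, S.nz⟩
  have A : ∀ x, ∃ b, R b (lab x) ∧ (Sing z (b * s1) ↔ Sing z b) := fun x => by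
    obtain ⟨b, hb⟩ := M.ex' (lab x)
    by_cases h : Sing z (b * s1) ↔ Sing z b
    · exact ⟨b, hb, h⟩
    · refine ⟨_, M.zmul hb, ?_⟩
      rw [S.flip M OO_card ⟨_, fx_lab x, hb⟩, sing_z M h8 OO_cw OO_card ⟨_, fx_lab x, hb⟩]
      exact not_iff.1 h
  choose φ h1 h2 using A
  have hZ : ∀ x, φ x ∈ Z0 M OO := fun x => ⟨_, fx_lab x, h1 x⟩
  have U : ∀ x b, R b (lab x) → (Sing z (b * s1) ↔ Sing z b) → b = φ x := fun x b hb h =>
    (M.uniq (h1 x) hb).resolve_right fun e => by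
      rw [e, S.flip M OO_card (hZ x), sing_z M h8 OO_cw OO_card (hZ x), h2] at h
      exact not_iff_self h
  have hadd : ∀ x y, φ (x + y) = φ x * φ y := fun x y => (U _ _ (by
    have := M.add_two (M.mul (h1 x) (h1 y)) (-lab (x * y))
    rw [lab_add] at this
    convert this using 1
    abel) (S.eta_mul M h8 OO_card (hZ y) (hZ x) (h2 y) (h2 x))).symm
  have h0 : ∀ x, lab x = 0 → φ x = 1 := fun x hx => (U x 1 (by rw [hx]; simpa using M.two 0)
    (by rw [one_mul]; exact iff_of_true S.sing (Or.inl rfl))).symm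
  have hp : ∀ y : G, y * y = 1 → ∀ a b : ZMod 2, y ^ (a + b).val = y ^ a.val * y ^ b.val := by
    intro y hy a b
    rcases H15.zmod2_cases a with rfl | rfl <;> rcases H15.zmod2_cases b with rfl | rfl
    · simp
    · simp
    · simp
    · exact (pow_zero y).trans (hy.symm.trans (by rw [ZMod.val_one, pow_one]))
  have hz : z ∈ EE M h8 OO_cw OO_card := Z0_le_EE M h8 (z_mem_Z0 M)
  have hR : ∀ x : V10, x (.inr 0) = 0 →
      R (z ^ (x (.inl 0)).val * s1 ^ (x (.inr 0)).val * φ x) (lab x) := fun x hx => by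
    rw [hx, ZMod.val_zero, pow_zero, mul_one]
    rcases H15.zmod2_cases (x (.inl 0)) with h | h <;> rw [h]
    · simpa using h1 x
    · rw [ZMod.val_one, pow_one]; exact M.zmul (h1 x)
  have hadd' : ∀ x y : V10, z ^ ((x + y) (.inl 0)).val * s1 ^ ((x + y) (.inr 0)).val * φ (x + y) =
      z ^ (x (.inl 0)).val * s1 ^ (x (.inr 0)).val * φ x *
        (z ^ (y (.inl 0)).val * s1 ^ (y (.inr 0)).val * φ y) := fun x y => by
    rw [Pi.add_apply, Pi.add_apply, hp z M.lx.sq, hp s1 (EE_sq M h8 hE), hadd]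
    have c1 := EE_comm M h8 (pow_mem hz (y (.inl 0)).val) (pow_mem hE (x (.inr 0)).val)
    have c2 := EE_comm M h8 (mul_mem (pow_mem hz (y (.inl 0)).val) (pow_mem hE (y (.inr 0)).val))
      (Z0_le_EE M h8 (hZ x))
    calc _ = z ^ (x (.inl 0)).val * (z ^ (y (.inl 0)).val * s1 ^ (x (.inr 0)).val) *
          s1 ^ (y (.inr 0)).val * (φ x * φ y) := by simp only [mul_assoc]
      _ = z ^ (x (.inl 0)).val * s1 ^ (x (.inr 0)).val *
          (z ^ (y (.inl 0)).val * s1 ^ (y (.inr 0)).val * φ x) * φ y := by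
        rw [c1]; simp only [mul_assoc]
      _ = _ := by rw [c2]; simp only [mul_assoc]
  have hcong : ∀ x y : V10, (∀ k, k ≠ .inl 0 → k ≠ .inr 0 → x k = y k) → lab x = lab y :=
    fun x y h => Finset.sum_congr rfl fun k _ => by
      by_cases h3 : k = .inl 0
      · rw [h3, bv_zero.1, smul_zero, smul_zero]
      by_cases h4 : k = .inr 0
      · rw [h4, bv_zero.2, smul_zero, smul_zero]
      rw [h k h3 h4]
  have l0 : lab 0 = 0 := by simp [lab]
  have hmem : ∀ x : V10, z ^ (x (.inl 0)).val * s1 ^ (x (.inr 0)).val * φ x ∈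
      EE M h8 OO_cw OO_card := fun x =>
    mul_mem (mul_mem (pow_mem hz _) (pow_mem hE _)) (Z0_le_EE M h8 (hZ x))
  have hs : ∀ k : I10, k = .inl 0 ∨ k = .inr 0 → φ (Pi.single k 1) = 1 := fun k hk =>
    h0 _ ((hcong _ 0 fun l l1 l2 => by
      rw [Pi.single_eq_of_ne (hk.elim (fun h => h ▸ l1) fun h => h ▸ l2)]; rfl).trans l0)
  have v1 : (1 : ZMod 2).val = 1 := rfl
  have hsz : z ^ ((Pi.single (.inl 0) 1 : V10) (.inl 0)).val *
      s1 ^ ((Pi.single (.inl 0) 1 : V10) (.inr 0)).val * φ (Pi.single (.inl 0) 1) = z := by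
    simp [hs _ (Or.inl rfl), v1]
  have hss : z ^ ((Pi.single (.inr 0) 1 : V10) (.inl 0)).val *
      s1 ^ ((Pi.single (.inr 0) 1 : V10) (.inr 0)).val * φ (Pi.single (.inr 0) 1) = s1 := by
    simp [hs _ (Or.inr rfl), v1]
  have hsurj : ∀ a ∈ Z0 M OO, ∃ x : V10,
      z ^ (x (.inl 0)).val * s1 ^ (x (.inr 0)).val * φ x = a := fun a ha => by
    obtain ⟨x, hx⟩ := exists_lab M ha
    have h3 := hR (Function.update x (.inr 0) 0) (Function.update_self ..)
    rw [hcong _ x fun k _ hk => Function.update_of_ne hk _ _] at h3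
    rcases M.uniq h3 hx with h | h
    · exact ⟨_, h.symm⟩
    · exact ⟨Pi.single (.inl 0) 1 + Function.update x (.inr 0) 0, by rw [hadd', hsz, h]⟩
  refine ⟨fun x => z ^ (x (.inl 0)).val * s1 ^ (x (.inr 0)).val * φ x, fun x y h => ?_, hadd',
    fun a => ⟨?_, ?_⟩, fun x => ?_, hsz, hss, hR⟩
  · have h3 := hadd' x y
    beta_reduce at h
    rw [← h, EE_sq M h8 (hmem x)] at h3
    have h4 : ∀ a b : ZMod 2, a + b = 0 → a = b := by decide
    suffices x + y = 0 from funext fun k => h4 _ _ (congrFun this k)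
    generalize x + y = w at h3
    have c0 : w (.inr 0) = 0 := (H15.zmod2_cases _).resolve_right fun c => by
      rw [c, v1, pow_one] at h3
      refine not_mem_of_sign M (by rw [OO_card]; omega) (by rw [OO_card]; omega) S.ov ?_
      have := mul_mem (mul_mem (inv_mem (pow_mem M.lx.mem (w (.inl 0)).val)) (h3 ▸ one_mem Q))
        (inv_mem (M.mem (h1 w)))
      simpa [mul_assoc] using this
    have h5 := hR w c0
    rw [h3] at h5
    obtain ⟨u, hu⟩ := (M.one_iff h5).1 (Or.inl rfl)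
    have h6 := lab_inj w fun j => by
      have := ((fx_lab w).half fx_zero (hu.trans (zero_add _).symm)).dot OO_cw OO_card (fx_bv j)
      rw [hu, AddSubgroup.coe_add, dot_add_left]
      change (16 : ℤ) ∣ dotInt _ (bvv j) at this
      omega
    rw [h0 w ((hcong w 0 h6).trans l0), c0, ZMod.val_zero, pow_zero, mul_one, mul_one] at h3
    have c1 : w (.inl 0) = 0 := (H15.zmod2_cases _).resolve_right fun c => by
      rw [c, v1, pow_one] at h3
      exact M.lx.ne h3
    funext k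
    by_cases k1 : k = .inl 0
    · rw [k1]; exact c1
    by_cases k2 : k = .inr 0
    · rw [k2]; exact c0
    exact h6 k k1 k2
  · rintro (h | h)
    · exact hsurj a h
    · obtain ⟨x, hx⟩ := hsurj _ (quot_mem_Z0 M OO_card h.1 h.2 S.ov S.nz)
      exact ⟨x + Pi.single (.inr 0) 1, (hadd' _ _).trans (by rw [hss, hx, inv_mul_cancel_right])⟩
  · rintro ⟨x, rfl⟩
    exact hmem x
  · have h3 := (sing_iff M h8 OO_cw OO_card (h1 x) (fx_lab x)).trans (lab_norm x)
    beta_reduce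
    rcases H15.zmod2_cases (x (.inr 0)) with c | c
    · rw [sing_iff M h8 OO_cw OO_card (hR x c) (fx_lab x), lab_norm, c, mul_zero]
    · rw [c, mul_one] at h3
      rw [c, v1, pow_one, mul_assoc, EE_comm M h8 hE (Z0_le_EE M h8 (hZ x))]
      rcases H15.zmod2_cases (x (.inl 0)) with a | a <;> rw [a] at h3 ⊢
      · rw [ZMod.val_zero, pow_zero, one_mul, h2, h3]
      · rw [v1, pow_one, ← mul_assoc, S.flip M OO_card (hZ x), h2, h3]
        generalize quadFormPlus 5 (ZMod 2) x = t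
        revert t; decide

end Cfsg.Agent.H38.MT
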