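import Cfsg.Agent.H38.TenD
import Cfsg.Agent.H97.Co2A

/-! Groups of Monster type: the centraliser `2^(10+16)` of `2^10` and the order of the normaliser. -/

set_option autoImplicit false

namespace Cfsg.Agent.H38.MT

open Subgroup H15 H97
open Cfsg.Agent.H14 (idx bits enc)

universe u

theorem card_conj {G : Type u} [Group G] (K : Subgroup G) (b : G) :
    Nat.card K = {a | ∃ g ∈ K, g * b * g⁻¹ = a}.ncard *
      Nat.card ↥(K ⊓ centralizer ({b} : Set G)) := by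
  letI : MulAction G G := MulAction.compHom G (MulAut.conj : G →* MulAut G)
  have h := H14.card_eq_orbit_mul K b
  have e : MulAction.stabilizer G b = centralizer ({b} : Set G) := by
    ext g
    rw [MulAction.mem_stabilizer_iff, mem_centralizer_singleton_iff]
    exact mul_inv_eq_iff_eq_mul
  rwa [e] at h

/-- the preimage of `2^(1+8)` in `Co0` -/
abbrev K1 : Subgroup Co0 := QQ1.comap (QuotientGroup.mk' (center Co0))

theorem card_K1 : Nat.card K1 = 1024 := by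
  have : Nat.card QQ1 = 512 := by
    rw [← card_QQ, ← SetLike.coe_sort_coe, ← SetLike.coe_sort_coe QQ, Nat.card_coe_set_eq,
      Nat.card_coe_set_eq, QQ1, coe_map]
    exact Set.ncard_image_of_injOn fun a ha b hb h => QQ_inj ha hb h
  rw [card_comap_co1, this]

theorem K1_le : K1 ≤ CenT tt := fun k hk => by
  rcases mk_mem_QQ1.1 hk with h | h
  · exact QQ_le h
  · exact (mul_mem_cancel_left negC_mem_cen).1 (QQ_le h)

theorem card_CenT : Nat.card (CenT tt) = 1024 * 174182400 := by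
  obtain ⟨θ, h1, h2⟩ := exists_theta
  have e : θ.ker = K1.subgroupOf _ := Subgroup.ext h2
  rw [← card_K1, ← card_Om8, ← Nat.card_congr (subgroupOfEquivOfLe K1_le).toEquiv, ← e,
    ← Nat.card_congr (QuotientGroup.quotientKerEquivOfSurjective θ h1).toEquiv, mul_comm]
  exact card_eq_card_quotient_mul_card_subgroup _

theorem sign_OO : signC OO OO_cw = tt * negC :=
  (signC_congr OO_eq).trans (H26.CoInv.signC_compl XX_cw)

theorem conj_OO {k : Co0} : k * signC OO OO_cw * k⁻¹ = signC OO OO_cw ↔ k ∈ CenT tt := by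
  rw [mem_centralizer_singleton_iff, mul_inv_eq_iff_eq_mul, sign_OO, ← mul_assoc,
    mul_assoc tt, ← negC_comm, ← mul_assoc, mul_left_inj]

theorem Fx.tt {v : leechLattice} (h : Fx OO v) : tt • v = v :=
  (H26.CoInv.signC_fix XX_cw).2 fun i hi => h i (by rw [OO_eq]; simpa using hi)

/-- five coordinates -/
abbrev T5 : Type := ZMod 2 × ZMod 2 × ZMod 2 × ZMod 2 × ZMod 2

/-- ten coordinates as a vector -/
def toV (t : T5 × T5) : V10 := Sum.elim ![t.1.1, t.1.2.1, t.1.2.2.1, t.1.2.2.2.1, t.1.2.2.2.2]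
  ![t.2.1, t.2.2.1, t.2.2.2.1, t.2.2.2.2.1, t.2.2.2.2.2]

theorem ncard_le_of_toV {P : V10 → Prop} {P' : T5 × T5 → Prop} [DecidablePred P']
    (h : ∀ t, P (toV t) → P' t) : {x | P x}.ncard ≤ (Finset.univ.filter P').card := by
  have : {x | P x} ⊆ toV '' (Finset.univ.filter P') := fun x hx => by
    have e : x = toV ((x (.inl 0), x (.inl 1), x (.inl 2), x (.inl 3), x (.inl 4)),
        (x (.inr 0), x (.inr 1), x (.inr 2), x (.inr 3), x (.inr 4))) := by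
      funext k
      rcases k with k | k <;> fin_cases k <;> rfl
    exact ⟨_, by simpa using h _ (e ▸ hx), e.symm⟩
  exact (Set.ncard_le_ncard this (Set.toFinite _)).trans
    ((Set.ncard_image_le (Set.toFinite _)).trans (Set.ncard_coe_finset _).le)

theorem quad_toV (t : T5 × T5) : quadFormPlus 5 (ZMod 2) (toV t) = t.1.1 * t.2.1 +
    t.1.2.1 * t.2.2.1 + t.1.2.2.1 * t.2.2.2.1 + t.1.2.2.2.1 * t.2.2.2.2.1 +
    t.1.2.2.2.2 * t.2.2.2.2.2 := by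
  rw [quadFormPlus, Fin.sum_univ_five]; rfl

theorem ncard_sing : {x : V10 | quadFormPlus 5 (ZMod 2) x = 0}.ncard ≤ 528 :=
  (ncard_le_of_toV fun t h => (quad_toV t).symm.trans h).trans (by decide +kernel)

theorem ncard_sing0 : {x : V10 | quadFormPlus 5 (ZMod 2) x = 0 ∧ x (.inr 0) = 0}.ncard ≤ 272 :=
  (ncard_le_of_toV (P' := fun t => _ ∧ t.2.1 = 0)
    fun t h => ⟨(quad_toV t).symm.trans h.1, h.2⟩).trans (by decide +kernel)

variable {G : Type u} [Group G] {z : G} {Q : Subgroup G}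
  {π : centralizer ({z} : Set G) →* Spor.Co1} {R : G → leechLattice → Prop}
  [Finite G] (M : MD z Q π R) {g : G} (h8 : R (g * z * g⁻¹) (e8 none))

/-- the group `2^10` of the standard octad -/
abbrev E10 : Subgroup G := EE M h8 OO_cw OO_card

/-- its centraliser -/
abbrev O26 : Subgroup G := centralizer (E10 M h8 : Set G)

/-- its normaliser -/
abbrev N10 : Subgroup G := normalizer (E10 M h8 : Set G)

/-- the data -/
structure TS (s1 n : G) (Φ : V10 → G) : Prop where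
  S : S1 π Q OO_cw s1
  n1 : n ∈ N10 M h8
  n2 : n * (g * z * g⁻¹) * n⁻¹ = z
  n3 : n * s1 * n⁻¹ ∈ Q
  inj : Function.Injective Φ
  add : ∀ x y, Φ (x + y) = Φ x * Φ y
  mem : ∀ a, a ∈ E10 M h8 ↔ ∃ x, Φ x = a
  sing : ∀ x, Sing z (Φ x) ↔ quadFormPlus 5 (ZMod 2) x = 0
  zed : Φ (Pi.single (.inl 0) 1) = z
  ess : Φ (Pi.single (.inr 0) 1) = s1
  lab : ∀ x, x (.inr 0) = 0 → R (Φ x) (lab x)

theorem exists_TS (hg : g * (g * z * g⁻¹) * g⁻¹ = z) : ∃ s1 n Φ, TS M h8 s1 n Φ := by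
  obtain ⟨n, h1, h2, s1, h3, h4, h5, h6, h7⟩ := exists_n M h8 hg (he := OO_cw) (hc := OO_card)
  obtain ⟨Φ, a1, a2, a3, a4, a5, a6, a7⟩ := S1.exists_phi M h8 ⟨h3, h4, h5, h6⟩
  exact ⟨s1, n, Φ, ⟨h3, h4, h5, h6⟩, mem_normalizer_fintype h1, h2, h7, a1, a2, a3, a4, a5, a6, a7⟩

theorem z_mem_E : z ∈ E10 M h8 := Z0_le_EE M h8 (z_mem_Z0 M)

theorem conj_E {n a : G} (hn : n ∈ N10 M h8) (ha : a ∈ E10 M h8) : n * a * n⁻¹ ∈ E10 M h8 :=
  (hn a).1 ha

theorem mem_N10 {h : G} {k : Co0} (hh : Ov π h k) (hk : k ∈ CenT tt) : h ∈ N10 M h8 :=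
  mem_normalizer_fintype fun _ ha => conj_mem_EE M h8 hh (conj_OO.2 hk) ha

theorem Q_le_N10 : Q ≤ N10 M h8 := fun _ hq => mem_N10 M h8 (ov_one M hq) (one_mem _)

theorem mem_O26 {y : G} : y ∈ O26 M h8 ↔ ∀ a ∈ E10 M h8, a * y = y * a := mem_centralizer_iff

theorem O26_le_C : O26 M h8 ≤ centralizer ({z} : Set G) := fun _ hy =>
  mem_centralizer_singleton_iff.2 (hy z (z_mem_E M h8)).symm

theorem E_le_O : E10 M h8 ≤ O26 M h8 := fun _ hy _ ha => EE_comm M h8 ha hy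

theorem O_le_N : O26 M h8 ≤ N10 M h8 := centralizer_le_normalizer _

theorem conj_O {n y : G} (hn : n ∈ N10 M h8) (hy : y ∈ O26 M h8) : n * y * n⁻¹ ∈ O26 M h8 :=
  fun a ha => by
    have := hy _ (conj_E M h8 (inv_mem hn) ha)
    calc a * (n * y * n⁻¹) = n * (n⁻¹ * a * n⁻¹⁻¹ * y) * n⁻¹ := by group
      _ = _ := by rw [this]; group

theorem mem_O_of_spl {x : G} {u : leechLattice} (hx : R x u) (h : Spl OO u) : x ∈ O26 M h8 := by
  rintro a (ha | ha)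
  · exact Z0_comm M OO_cw OO_card ha hx h
  · exact mul_inv_eq_iff_eq_mul.1 (comm_of_spl M ha.1 ha.2 hx h)

theorem mem_Z0_of_comm {b : G} (hb : b ∈ Q) (h : ∀ x ∈ Q ⊓ O26 M h8, x * b = b * x) :
    b ∈ Z0 M OO :=
  mem_Z0_of M OO_cw OO_card hb fun x _ hx hu => h x ⟨M.mem hx, mem_O_of_spl M h8 hx hu⟩

theorem W_eq : Q ⊓ centralizer (Z0 M OO : Set G) = Q ⊓ O26 M h8 :=
  le_antisymm (fun x hx => by
    obtain ⟨u, hu⟩ := M.ex x hx.1
    exact ⟨hx.1, mem_O_of_spl M h8 hu (spl_of_cent M OO_cw OO_card hu fun b hb => (hx.2 b hb).symm)⟩)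
    fun x hx => ⟨hx.1, fun b hb => hx.2 b (Z0_le_EE M h8 hb)⟩

variable {M h8} {s1 n : G} {Φ : V10 → G} (T : TS M h8 s1 n Φ)
include T

namespace TS

theorem s_mem : s1 ∈ E10 M h8 := Or.inr ⟨T.S.ov, T.S.nz⟩

theorem s_not_mem : s1 ∉ Q :=
  not_mem_of_sign M (by rw [OO_card]; omega) (by rw [OO_card]; omega) T.S.ov

theorem phi_mem (x : V10) : Φ x ∈ E10 M h8 := (T.mem _).2 ⟨x, rfl⟩

theorem zero : Φ 0 = 1 := by
  have := T.add 0 0
  rw [add_zero] at this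
  exact mul_eq_left.1 this.symm

theorem cases {a : G} (ha : a ∈ E10 M h8) : a ∈ Z0 M OO ∨ ∃ b ∈ Z0 M OO, a = b * s1 :=
  ha.imp id fun h => ⟨_, quot_mem_Z0 M OO_card h.1 h.2 T.S.ov T.S.nz, by rw [inv_mul_cancel_right]⟩

theorem coord {x : V10} (h : Φ x ∈ Q) : x (.inr 0) = 0 :=
  (H15.zmod2_cases _).resolve_right fun c => T.s_not_mem (by
    have h1 := M.mem (T.lab (x + Pi.single (.inr 0) 1) (by rw [Pi.add_apply, c]; simp; rfl))
    rwa [T.add, T.ess, mul_mem_cancel_left h] at h1)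

theorem card_E : Nat.card (E10 M h8) = 2 ^ 10 := by
  rw [← Nat.card_congr (Equiv.ofBijective (fun x => (⟨Φ x, T.phi_mem x⟩ : E10 M h8))
    ⟨fun x y h => T.inj (congrArg Subtype.val h), fun a => ((T.mem a).1 a.2).imp fun _ =>
      Subtype.ext⟩)]
  simp

theorem card_Z0 : Nat.card (Z0 M OO) = 2 ^ 9 := by
  have i2 : ((Z0 M OO).subgroupOf (E10 M h8)).index = 2 := by
    rw [index_eq_two_iff]
    refine ⟨⟨s1, T.s_mem⟩, fun b => ?_⟩
    simp only [mem_subgroupOf, coe_mul]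
    rcases T.cases b.2 with h | ⟨c, hc, h⟩
    · exact Or.inr ⟨h, fun h' => T.s_not_mem (Z0_le M ((mul_mem_cancel_left h).1 h'))⟩
    · rw [h, mul_assoc, EE_sq M h8 T.s_mem, mul_one]
      exact Or.inl ⟨hc, fun h' => T.s_not_mem (Z0_le M ((mul_mem_cancel_left hc).1 h'))⟩
  have := ((Z0 M OO).subgroupOf (E10 M h8)).card_mul_index
  rw [i2, Nat.card_congr (subgroupOfEquivOfLe (Z0_le_EE M h8)).toEquiv, T.card_E] at this
  omega

theorem card_W : Nat.card ↥(Q ⊓ O26 M h8) = 2 ^ 17 := by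
  have := (ex_of_lx M.lx).card_cent (Z0_le M (e := OO)) (z_mem_Z0 M)
  rw [W_eq M h8, T.card_Z0, M.card] at this
  omega

theorem W_eq' : Q ⊓ centralizer ({s1} : Set G) = Q ⊓ O26 M h8 :=
  le_antisymm (fun x hx => by
    obtain ⟨u, hu⟩ := M.ex x hx.1
    exact ⟨hx.1, mem_O_of_spl M h8 hu (spl_of_conj M T.S.ov hu (Or.inl
      (mul_inv_eq_iff_eq_mul.2 (mem_centralizer_singleton_iff.1 hx.2).symm)))⟩)
    fun x hx => ⟨hx.1, mem_centralizer_singleton_iff.2 (hx.2 _ T.s_mem).symm⟩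

theorem mem_CenT {h : G} {k : Co0} (hh : Ov π h k) (hn : h ∈ N10 M h8) : k ∈ CenT tt := by
  have h1 := (conj_E M h8 hn T.s_mem).resolve_left fun h => T.s_not_mem (by
    simpa [mul_assoc] using M.lx.norm _ hh.inv.comm _ (Z0_le M h))
  rcases h1.1.eq (hh.conj T.S.ov) with e | e
  · exact conj_OO.1 e
  · refine absurd ?_ (not_conj_neg k)
    rw [sign_OO, mul_inv_eq_iff_eq_mul, mul_assoc negC, mul_assoc tt negC k, ← negC_comm k] at e
    exact mul_right_cancel (b := negC) (by simpa only [mul_assoc] using e)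

theorem pb_H : pb π (N10 M h8 ⊓ centralizer ({z} : Set G)) = CenT tt := by
  ext k
  rw [mem_pb]
  constructor
  · rintro ⟨h, h1, h2⟩
    exact T.mem_CenT ⟨h.2, h2⟩ h1.1
  · intro hk
    obtain ⟨h, hh⟩ := ov_lift M k
    exact ⟨⟨h, hh.mem⟩, ⟨mem_N10 M h8 hh hk, hh.mem⟩, hh.2⟩

theorem card_H : Nat.card ↥(N10 M h8 ⊓ centralizer ({z} : Set G)) = 2 ^ 34 * 174182400 := by
  have := M.card_pb (H := N10 M h8 ⊓ centralizer ({z} : Set G)) inf_le_right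
  rw [T.pb_H, card_CenT, inf_eq_right.2 (le_inf (Q_le_N10 M h8) fun q hq => (ov_one M hq).mem),
    M.card] at this
  omega

theorem lift_QQ {k : Co0} (hk : k ∈ QQ) : ∃ h ∈ O26 M h8, Ov π h k := by
  obtain ⟨h, hh⟩ := ov_lift M k
  obtain ⟨b, hb, e⟩ := (T.cases (conj_E M h8 (mem_N10 M h8 hh (QQ_le hk)) T.s_mem)).resolve_left
    fun h => T.s_not_mem (by simpa [mul_assoc] using M.lx.norm _ hh.inv.comm _ (Z0_le M h))
  obtain ⟨q, hq, e'⟩ := T.S.exists_conj' M OO_card hb (e ▸ T.S.sing.conj h)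
  have ho : Ov π (q⁻¹ * h) k := by simpa using (ov_one M (inv_mem hq)).mul hh
  have hs : q⁻¹ * h * s1 * (q⁻¹ * h)⁻¹ = s1 := by
    calc _ = q⁻¹ * (h * s1 * h⁻¹) * q := by group
      _ = _ := by rw [e, ← e']; group
  generalize q⁻¹ * h = c at ho hs
  have A : ∀ a ∈ Z0 M OO, c * a * c⁻¹ = a := by
    rintro a ⟨v, h1, h2⟩
    have h3 := ho.lab M h2
    rw [QQ_fix hk h1.tt] at h3
    refine (M.uniq h2 h3).resolve_right fun h4 => ?_
    have h5 := T.S.flip M OO_card ⟨v, h1, h2⟩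
    rw [← h4, ← sing_conj c⁻¹, show c⁻¹ * (c * a * c⁻¹ * s1) * c⁻¹⁻¹ = a * s1 by
      conv_lhs => rw [← hs]
      group] at h5
    exact iff_not_self h5
  refine ⟨c, fun a ha => (mul_inv_eq_iff_eq_mul.1 ?_).symm, ho⟩
  rcases T.cases ha with h | ⟨b, h, rfl⟩
  · exact A a h
  · rw [← conj_mul, A b h, hs]

theorem pb_O : pb π (O26 M h8) = K1 := by
  have := finite_Co0
  have h1 : K1 ≤ pb π (O26 M h8) := fun k hk => by
    rcases mk_mem_QQ1.1 hk with h | h <;> obtain ⟨c, h1, h2⟩ := T.lift_QQ h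
    · exact mem_pb.2 ⟨⟨c, h2.mem⟩, h1, h2.2⟩
    · exact mem_pb.2 ⟨⟨c, h2.mem⟩, h1, (co1_neg k).symm.trans h2.2⟩
  obtain ⟨θ, s, hθ⟩ := exists_theta
  have hn : ((pb π (O26 M h8)).subgroupOf (CenT tt)).Normal := ⟨fun k hk j => by
    obtain ⟨h, h2, h3⟩ := mem_pb.1 hk
    obtain ⟨c, hc⟩ := ov_lift M (j : Co0)
    have := hc.conj (show Ov π (h : G) (k : Co0) from ⟨h.2, h3⟩)
    exact mem_pb.2 ⟨⟨_, this.mem⟩, conj_O M h8 (mem_N10 M h8 hc j.2) h2, this.2⟩⟩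
  rcases simple_Om8.eq_bot_or_eq_top_of_normal _ (hn.map θ s) with h | h
  · refine le_antisymm (fun k hk => ?_) h1
    obtain ⟨c, h2, h3⟩ := mem_pb.1 hk
    exact (hθ ⟨k, T.mem_CenT ⟨c.2, h3⟩ (O_le_N M h8 h2)⟩).1 ((Subgroup.map_eq_bot_iff _).1 h hk)
  · exfalso
    have hc : signC _ cw_c ∈ CenT tt := mem_centralizer_singleton_iff.2
      (signG_comm (signC_mem_signG _ _) (signC_mem_signG _ _))
    obtain ⟨k, hk, e⟩ := h.ge (mem_top (θ ⟨_, hc⟩))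
    have h2 : (k⁻¹ * ⟨_, hc⟩ : CenT tt).1 ∈ K1 := (hθ _).1 (by rw [map_mul, map_inv, e, inv_mul_cancel])
    obtain ⟨c, h3, h4⟩ := mem_pb.1 ((mul_mem_cancel_left (inv_mem hk)).1 (h1 h2))
    obtain ⟨x, hx⟩ := M.ex' (lTwo OO_cw)
    have h5 := Ov.lab M ⟨c.2, h4⟩ hx
    rw [← h3 x (Z0_le_EE M h8 ⟨_, fx_vTwo _, hx⟩), mul_inv_cancel_right] at h5
    obtain ⟨w, hw⟩ := M.congr hx h5
    exact absurd (sign_vTwo OO_cw OO_card cw_c (δ := 0) (Or.inl rfl)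
      (by rw [zero_smul, add_zero]; exact hw)).2 (by decide +kernel)

theorem card_O : Nat.card (O26 M h8) = 2 ^ 26 := by
  have := M.card_pb (O26_le_C M h8)
  rw [T.pb_O, card_K1, inf_comm, T.card_W] at this
  omega

theorem orbit_s : {a | ∃ h ∈ N10 M h8 ⊓ centralizer ({z} : Set G), h * (g * z * g⁻¹) * h⁻¹ = a} =
    {a | a ∈ Z0 M OO ∧ Sing z a} \ {1, z} ∧
    270 ≤ ({a | a ∈ Z0 M OO ∧ Sing z a} \ {1, z}).ncard := by
  have := finite_Co0
  have hs : g * z * g⁻¹ ∈ Z0 M OO := ⟨_, fun i hi => by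
    rw [e8_val, Pi.single_eq_of_ne (by rintro rfl; exact hi (by decide +kernel))], h8⟩
  have h1 := card_conj (N10 M h8 ⊓ centralizer ({z} : Set G)) (g * z * g⁻¹)
  have h2 := M.card_pb (H := N10 M h8 ⊓ centralizer ({z} : Set G) ⊓
    centralizer ({g * z * g⁻¹} : Set G)) (inf_le_left.trans inf_le_right)
  have h3 := (ex_of_lx M.lx).card_cent1 (M.mem h8) (fun h => M.lx.ne (by simpa using h)) (s_ne M h8)
  have h4 := card_le_of_le (show N10 M h8 ⊓ centralizer ({z} : Set G) ⊓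
    centralizer ({g * z * g⁻¹} : Set G) ⊓ Q ≤ Q ⊓ centralizer ({g * z * g⁻¹} : Set G) from
      fun a ha => ⟨ha.2, ha.1.2⟩)
  have h5 := (card_le_of_le (show pb π (N10 M h8 ⊓ centralizer ({z} : Set G) ⊓
    centralizer ({g * z * g⁻¹} : Set G)) ≤ CenT tt ⊓ monoN from fun k hk => by
      obtain ⟨h, a1, a2⟩ := mem_pb.1 hk
      exact ⟨T.mem_CenT ⟨h.2, a2⟩ a1.1.1, M.pb_L (s_ne M h8) h8 ▸
        mem_pb.2 ⟨h, ⟨h.2, a1.2⟩, a2⟩⟩)).trans card_cen_tt_mono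
  have h6 := Nat.mul_le_mul h4 h5
  rw [T.card_H] at h1
  rw [M.card] at h3
  have sub : {a | ∃ h ∈ N10 M h8 ⊓ centralizer ({z} : Set G), h * (g * z * g⁻¹) * h⁻¹ = a} ⊆
      {a | a ∈ Z0 M OO ∧ Sing z a} \ {1, z} := by
    rintro _ ⟨h, hh, rfl⟩
    have hz := mem_centralizer_singleton_iff.1 hh.2
    refine ⟨⟨EE_inf M h8 (conj_E M h8 hh.1 (Z0_le_EE M h8 hs)) (M.lx.norm h hz _ (M.mem h8)),
      Sing.conj (Or.inr (isConj_iff.2 ⟨g, rfl⟩)) h⟩, ?_⟩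
    rintro (e | e)
    · exact M.lx.ne (by simpa using e)
    · refine s_ne M h8 ((MulAut.conj h).injective (e.trans ?_))
      rw [MulAut.conj_apply, hz, mul_inv_cancel_right]
  have up : ({a | a ∈ Z0 M OO ∧ Sing z a} \ {1, z}).ncard ≤ 270 := by
    have a1 : {a | a ∈ Z0 M OO ∧ Sing z a} ⊆
        Φ '' {x | quadFormPlus 5 (ZMod 2) x = 0 ∧ x (.inr 0) = 0} := fun a ha => by
      obtain ⟨x, rfl⟩ := (T.mem a).1 (Z0_le_EE M h8 ha.1)
      exact ⟨x, ⟨(T.sing x).1 ha.2, T.coord (Z0_le M ha.1)⟩, rfl⟩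
    have a2 := ((Set.ncard_le_ncard a1).trans Set.ncard_image_le).trans ncard_sing0
    rw [Set.ncard_diff (by
      rintro _ (rfl | rfl)
      exacts [⟨one_mem _, Or.inl rfl⟩, ⟨z_mem_Z0 M, Or.inr (IsConj.refl _)⟩]),
      Set.ncard_pair M.lx.ne.symm]
    omega
  have lo : 270 ≤ {a | ∃ h ∈ N10 M h8 ⊓ centralizer ({z} : Set G),
      h * (g * z * g⁻¹) * h⁻¹ = a}.ncard := by
    by_contra hlt
    have := Nat.mul_le_mul (Nat.le_of_lt_succ (not_le.1 hlt)) (show Nat.card ↥(N10 M h8 ⊓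
      centralizer ({z} : Set G) ⊓ centralizer ({g * z * g⁻¹} : Set G)) ≤ 2 ^ 23 * (4096 * 322560) by
        rw [← h2, show Nat.card ↥(Q ⊓ centralizer ({g * z * g⁻¹} : Set G)) = 2 ^ 24 by omega] at h6
        omega)
    omega
  exact ⟨Set.eq_of_subset_of_ncard_le sub (up.trans lo), lo.trans (Set.ncard_le_ncard sub)⟩

theorem orbit_z : {a | ∃ m ∈ N10 M h8, m * z * m⁻¹ = a} = {a | a ∈ E10 M h8 ∧ Sing z a} \ {1} ∧
    {a | ∃ m ∈ N10 M h8, m * z * m⁻¹ = a}.ncard = 527 := by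
  obtain ⟨o1, o2⟩ := T.orbit_s
  have A : ∀ a ∈ Z0 M OO, Sing z a → a ≠ 1 → ∃ m ∈ N10 M h8, m * z * m⁻¹ = a := fun a h1 h2 h3 => by
    by_cases h4 : a = z
    · exact ⟨1, one_mem _, by simp [h4]⟩
    obtain ⟨h, h5, rfl⟩ := o1.ge ⟨⟨h1, h2⟩, by rintro (h | h); exacts [h3 h, h4 h]⟩
    refine ⟨h * n⁻¹, mul_mem h5.1 (inv_mem T.n1), ?_⟩
    conv_lhs => rw [← T.n2]
    group
  have hs1 : s1 ≠ 1 := fun h => T.s_not_mem (h ▸ one_mem Q)
  obtain ⟨m, hm, e⟩ := A _ (EE_inf M h8 (conj_E M h8 T.n1 T.s_mem) T.n3) (T.S.sing.conj n)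
    (by simpa using hs1)
  have e1 : {a | ∃ m ∈ N10 M h8, m * z * m⁻¹ = a} = {a | a ∈ E10 M h8 ∧ Sing z a} \ {1} := by
    ext a
    constructor
    · rintro ⟨m, hm, rfl⟩
      exact ⟨⟨conj_E M h8 hm (z_mem_E M h8), Or.inr (isConj_iff.2 ⟨m, rfl⟩)⟩,
        by simpa using M.lx.ne⟩
    · rintro ⟨⟨h1, h2⟩, h3⟩
      rcases T.cases h1 with h | ⟨b, hb, rfl⟩
      · exact A a h h2 h3
      · obtain ⟨q, hq, e'⟩ := T.S.exists_conj' M OO_card hb h2
        refine ⟨q * n⁻¹ * m, mul_mem (mul_mem (Q_le_N10 M h8 hq) (inv_mem T.n1)) hm, ?_⟩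
        calc _ = q * n⁻¹ * (m * z * m⁻¹) * n * q⁻¹ := by group
          _ = _ := by rw [e, ← e']; group
  refine ⟨e1, le_antisymm ?_ ?_⟩
  · have a1 : {a | a ∈ E10 M h8 ∧ Sing z a} ⊆ Φ '' {x | quadFormPlus 5 (ZMod 2) x = 0} :=
      fun a ha => by
        obtain ⟨x, rfl⟩ := (T.mem a).1 ha.1
        exact ⟨x, (T.sing x).1 ha.2, rfl⟩
    have a2 := ((Set.ncard_le_ncard a1).trans Set.ncard_image_le).trans ncard_sing
    rw [e1, Set.ncard_diff_singleton_of_mem (by exact ⟨one_mem _, Or.inl rfl⟩)]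
    omega
  · have b1 := card_conj Q s1
    rw [T.W_eq', T.card_W, M.card] at b1
    have b2 : insert z ({a | a ∈ Z0 M OO ∧ Sing z a} \ {1, z}) ∪ {a | ∃ q ∈ Q, q * s1 * q⁻¹ = a} ⊆
        {a | a ∈ E10 M h8 ∧ Sing z a} \ {1} := by
      rintro a ((rfl | h) | ⟨q, hq, rfl⟩)
      · exact ⟨⟨z_mem_E M h8, Or.inr (IsConj.refl _)⟩, M.lx.ne⟩
      · exact ⟨⟨Z0_le_EE M h8 h.1.1, h.1.2⟩, fun e => h.2 (Or.inl e)⟩
      · exact ⟨⟨conj_E M h8 (Q_le_N10 M h8 hq) T.s_mem, T.S.sing.conj q⟩, by simpa using hs1⟩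
    have b3 := Set.ncard_le_ncard b2
    rw [Set.ncard_union_eq (Set.disjoint_left.2 (by
      rintro a ha ⟨q, hq, rfl⟩
      refine T.s_not_mem ((mul_mem_cancel_left hq).1 ((mul_mem_cancel_right (inv_mem hq)).1 ?_))
      rcases ha with h | h
      exacts [h ▸ M.lx.mem, Z0_le M h.1.1])),
      Set.ncard_insert_of_notMem fun h => h.2 (Or.inr rfl)] at b3
    rw [e1]
    omega

theorem card_N : Nat.card (N10 M h8) = 527 * (2 ^ 34 * 174182400) := by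
  rw [card_conj _ z, T.orbit_z.2, T.card_H]

end TS

end Cfsg.Agent.H38.MT
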